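import Cfsg.Agent.H22.PrimeTI
import Cfsg.Agent.H22.Bridge2

/-! Bridge for section 4. -/

set_option autoImplicit false

open Cfsg.Agent.H4 Cfsg.Agent.H20

namespace Cfsg.Agent.H22

theorem PrimeTI.of_top {L : Type*} [Group L] [Fintype L] {K W₁ W₂ : Subgroup L} [hK : K.Normal]
    (h1 : K ⊓ W₁ = ⊥) (h2 : K ⊔ W₁ = ⊤) (hW₁ : W₁ ≠ ⊥) (hW₁c : IsCyclic W₁)
    (hHall : Nat.Coprime (Nat.card W₁) W₁.index) (hW₂ : W₂ ≠ ⊥) (hW₂c : IsCyclic W₂) (hW₂K : W₂ ≤ K)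
    (hC : ∀ x ∈ W₁, x ≠ 1 → K ⊓ Subgroup.centralizer ({x} : Set L) = W₂)
    (hodd : Odd (Nat.card ↥(W₁ ⊔ W₂))) : PrimeTI ⊤ K (W₁ ⊔ W₂) W₁ W₂ := by
  have hc : IsComplIn K W₁ ⊤ := H21.Compl.of_norm (Or.inr (le_top.trans (top_le_normalizer K))) h2 h1
  refine ⟨hc, top_le_normalizer K, ?_, hW₁, hW₁c, hW₂, hW₂c, hW₂K, hC, (DP.of_comm
    (eq_bot_iff.2 ((inf_le_inf_left _ hW₂K).trans (inf_comm K W₁ ▸ h1).le)) fun a ha b hb => ?_).compl,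
    hodd⟩
  · rwa [← H21.Compl.relIndex_right hc, Subgroup.relIndex_top_right]
  · by_cases e : a = 1
    · simp [e]
    · exact (Subgroup.mem_centralizer_singleton_iff.1 ((hC a ha e).symm ▸ hb :
        b ∈ K ⊓ Subgroup.centralizer ({a} : Set L)).2).symm

end Cfsg.Agent.H22
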