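import Cfsg.Agent.H22.Nat2
import Cfsg.Agent.H27.SL2d
import Cfsg.Agent.H27.GL2d
import Cfsg.Agent.H19.Count
import Cfsg.Agent.H19.GL2Ord
import Cfsg.Agent.H2.Zsig

/-! Unipotent elements of `SL₂(q)` on faithful modules. -/

set_option autoImplicit false
set_option linter.style.haveILetI false

namespace Cfsg.Agent.H22.Nt

open Matrix Cfsg.Agent.H12 Cfsg.Agent.H27 Subgroup
open scoped MatrixGroups

theorem pow_mem_zpowers {G : Type*} [Group G] {g h : G} {r k : ℕ} (hr : r.Prime)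
    (hg : orderOf g = r ^ (k + 1)) (hh : h ∈ zpowers g) (h1 : h ≠ 1) : g ^ r ^ k ∈ zpowers h := by
  have hf : IsOfFinOrder g := by
    rw [← orderOf_pos_iff, hg]; exact pow_pos hr.pos _
  obtain ⟨m, rfl⟩ := (hf.mem_powers_iff_mem_zpowers).2 hh
  obtain ⟨i, hi, e⟩ := (Nat.dvd_prime_pow hr).1 (Nat.gcd_dvd_right m (r ^ (k + 1)))
  have hik : i ≤ k := by
    by_contra hn
    obtain rfl : i = k + 1 := by omega
    exact h1 (orderOf_dvd_iff_pow_eq_one.1 (hg ▸ e ▸ Nat.gcd_dvd_left _ _))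
  have : g ^ r ^ i ∈ zpowers (g ^ m) := by
    refine ⟨m.gcdA (r ^ (k + 1)), ?_⟩
    simp only
    rw [← e, ← zpow_natCast g (Nat.gcd _ _), Nat.gcd_eq_gcd_ab, _root_.zpow_add, _root_.zpow_mul,
      _root_.zpow_mul, zpow_natCast, zpow_natCast, ← hg, pow_orderOf_eq_one, _root_.one_zpow, mul_one]
  obtain ⟨j, rfl⟩ := Nat.exists_eq_add_of_le hik
  rw [pow_add, pow_mul]
  exact Subgroup.pow_mem _ this _

theorem dvd_sub {G : Type*} [Group G] [Finite G] {V : Subgroup G} {g : G} {r k : ℕ} (hr : r.Prime)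
    (hg : orderOf g = r ^ (k + 1)) (hn : g ∈ normalizer (V : Set G)) :
    r ^ (k + 1) ∣ Nat.card V - Nat.card ↥(V ⊓ centralizer {g ^ r ^ k}) := by
  letI : MulAction (zpowers g) G := MulAction.compHom G (MulAut.conj.comp (zpowers g).subtype)
  have hs : ∀ (h : zpowers g) (x : G), h • x = h.1 * x * h.1⁻¹ := fun _ _ => rfl
  have := H19.dvd_ncard_of_invariant' (H := zpowers g) (r ^ (k + 1))
    ((V : Set G) \ (V ⊓ centralizer {g ^ r ^ k} : Subgroup G)) (fun h x hx => by
      rw [hs]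
      refine ⟨(mem_normalizer_iff.1 (zpowers_le.2 hn h.2) x).1 hx.1, fun hc => hx.2 ⟨hx.1, ?_⟩⟩
      have h1 := mem_centralizer_singleton_iff.1 hc.2
      obtain ⟨m, hm⟩ := h.2
      refine mem_centralizer_singleton_iff.2 ?_
      have h2 : h.1 * g ^ r ^ k = g ^ r ^ k * h.1 := by
        rw [← hm]; exact ((Commute.refl g).zpow_left m).pow_right _
      calc _ = h.1⁻¹ * (h.1 * x * h.1⁻¹ * g ^ r ^ k) * h.1 := by
            rw [mul_assoc h.1⁻¹, mul_assoc _ (g ^ r ^ k), ← h2]; group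
        _ = _ := by rw [h1, ← mul_assoc, ← mul_assoc, ← mul_assoc, mul_assoc h.1⁻¹, ← h2]; group)
    (fun x hx => by
      have : MulAction.stabilizer (zpowers g) x = ⊥ := by
        rw [eq_bot_iff]
        intro h hh
        by_contra h1
        have h2 := pow_mem_zpowers hr hg h.2 (fun e => h1 (Subtype.ext e))
        refine hx.2 ⟨hx.1, mem_centralizer_singleton_iff.2 ?_⟩
        obtain ⟨m, hm⟩ := h2
        have h3 : Commute x h.1 := (mul_inv_eq_iff_eq_mul.1 ((hs h x).symm.trans hh)).symm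
        rw [← hm]; exact h3.zpow_right m
      rw [this, index_bot, Nat.card_zpowers, hg])
  rwa [Set.ncard_sdiff (fun x hx => hx.1)] at this

theorem exists_ppd {p n : ℕ} (hp : p.Prime) (hn : 1 < n) : ∃ r k : ℕ, r.Prime ∧ r ≠ 2 ∧ r ≠ p ∧
    r ^ (k + 1) ∣ p ^ n + 1 ∧ ∀ m, 0 < m → r ^ (k + 1) ∣ p ^ m - 1 → 2 * n ≤ m := by
  by_cases h : p = 2 ∧ n = 3
  · obtain ⟨rfl, rfl⟩ := h
    refine ⟨3, 1, by norm_num, by norm_num, by norm_num, by norm_num, fun m h0 hm => ?_⟩
    by_contra hh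
    have : m < 6 := by omega
    interval_cases m <;> simp at hm
  · obtain ⟨r, hr, h1, h2⟩ := H2.zsigmondy (n := 2 * n) hp.one_lt (by omega) (by omega) (by omega)
    have hpn : 1 < p ^ n := Nat.one_lt_pow (by omega) hp.one_lt
    refine ⟨r, 0, hr, ?_, ?_, ?_, fun m h0 hm => ?_⟩
    · rintro rfl
      refine h2 1 one_pos (by omega) ?_
      rcases hp.eq_two_or_odd' with rfl | h
      · have : 2 ∣ 2 ^ (2 * n) := dvd_pow_self 2 (by omega)
        have := Nat.one_le_two_pow (n := 2 * n)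
        omega
      · rw [pow_one]; exact (Nat.Odd.sub_odd h odd_one).two_dvd
    · rintro rfl
      exact hp.one_lt.ne' (Nat.dvd_one.1 ((Nat.dvd_sub_iff_right (Nat.one_le_pow _ _ hp.pos)
        (dvd_pow_self r (by omega))).1 h1))
    · rw [mul_comm, pow_mul, sq_sub_one_nat] at h1
      rw [zero_add, pow_one]
      exact ((Nat.Prime.dvd_mul hr).1 h1).resolve_left (h2 n (by omega) (by omega))
    · by_contra hh
      exact h2 m h0 (by omega) (by simpa using hm)

variable {F : Type*} [Field F] [Fintype F]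

theorem exists_elt {N : ℕ} (hN : Odd N) (h1 : N ≠ 1) (hd : N ∣ Fintype.card F + 1) {t : F}
    (ht : t ≠ 0) : ∃ h : SL(2, F), orderOf ((upper t * (h * upper t * h⁻¹)) ^ 2) = N := by
  obtain ⟨A, hA⟩ := H19.exists_SL2_order_add_one (F := F)
  let z := A ^ (orderOf A / N)
  have hz : orderOf z = N := orderOf_pow_orderOf_div (by omega) (hA ▸ hd)
  have h4 : orderOf (z ^ 4) = N := by
    rw [Nat.Coprime.orderOf_pow, hz]
    rw [hz]; exact (Nat.Coprime.pow_right 2 (Nat.coprime_two_right.2 hN))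
  have hN0 : (N : F) ≠ 0 := fun h => by
    obtain ⟨k, hk⟩ := hd
    exact natCast_card_add_one_ne_zero (F := F) (by rw [hk, Nat.cast_mul, h, zero_mul])
  have hsq : (-z ^ 2) ^ 2 = z ^ 4 := by rw [neg_sq, ← pow_mul]
  have hr : Reg (-z ^ 2) := by
    rcases central_or_trace_ne (n := N) (g := -z ^ 2) hN0 (Or.inr (by
      rw [hN.neg_pow, ← pow_mul, mul_comm, pow_mul, ← hz, pow_orderOf_eq_one, one_pow]))
      with e | e | e
    · rw [← hsq, e, one_pow, orderOf_one] at h4; exact (h1 h4.symm).elim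
    · rw [← hsq, e, neg_one_sq, orderOf_one] at h4; exact (h1 h4.symm).elim
    · exact e
  have htr : (-z ^ 2).1.trace = 2 - z.1.trace ^ 2 := by
    have := z.2
    rw [det_fin_two] at this
    change (-((z : Matrix (Fin 2) (Fin 2) F) ^ 2)).trace = _
    simp only [sq, trace_fin_two, Matrix.neg_apply, Matrix.mul_apply, Fin.sum_univ_two]
    linear_combination 2 * this
  have hν : z.1.trace ≠ 0 := fun h => hr (by rw [htr, h]; norm_num)
  have hμ : t / z.1.trace ≠ 0 := div_ne_zero ht hν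
  refine ⟨nn (t / z.1.trace), ?_⟩
  rw [nn_upper hμ, mul_inv_cancel_right]
  obtain ⟨c, hc⟩ := isConj_iff.1 (sl_isConj_of_trace (h := upper t * lower
    (-(t * (t / z.1.trace)⁻¹ ^ 2))) hr.not_scal hr.not_uni (by
      rw [htr]
      change _ = ((upper t : Matrix (Fin 2) (Fin 2) F) * (lower _ : SL(2, F))).trace
      rw [upper_coe, lower_coe]
      simp [trace_fin_two]
      field_simp
      ring))
  rw [← hc, conj_pow, hsq, ← h4]
  exact (SemiconjBy.orderOf_eq c (by simp [SemiconjBy])).symm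

theorem idx {G : Type*} [Group G] [Finite G] {p : ℕ} [hp : Fact p.Prime] {V H : Subgroup G}
    (hV : IsElementaryAbelian p V) (hHV : H ≤ normalizer (V : Set G))
    (hf : H ⊓ centralizer (V : Set G) = ⊥) {n : ℕ} (hF : Fintype.card F = p ^ n)
    (e₀ : H ≃* SL(2, F)) (S : Sylow p H) {a : G} (ha : a ∈ (S : Subgroup H).map H.subtype)
    (h1 : a ≠ 1) : p ^ n ≤ (V ⊓ centralizer ({a} : Set G)).relIndex V := by
  haveI := charP_of_card hF
  have hVp : IsPGroup p V := fun v => ⟨1, Subtype.ext (by simpa using hV.2 v v.2)⟩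
  have hix : ∀ g ∈ H, g ≠ 1 → ∃ m, 0 < m ∧ (V ⊓ centralizer ({g} : Set G)).relIndex V = p ^ m := by
    intro g hg g1
    obtain ⟨m, hm⟩ := hVp.index ((V ⊓ centralizer ({g} : Set G)).subgroupOf V)
    refine ⟨m, Nat.pos_of_ne_zero ?_, hm⟩
    rintro rfl
    have := relIndex_eq_one.1 hm
    exact g1 (mem_bot.1 (hf.le ⟨hg, fun v hv => mem_centralizer_singleton_iff.1 (this hv).2⟩))
  obtain ⟨e, he⟩ := std_iso e₀ S
  obtain ⟨s, hs, rfl⟩ := ha
  obtain ⟨t, ht⟩ := (he s).1 hs
  have ht0 : t ≠ 0 := by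
    rintro rfl
    rw [upper_zero, map_eq_one_iff _ e.injective] at ht
    exact h1 (by simp [ht])
  obtain ⟨m, hm0, hm⟩ := hix s s.2 h1
  rw [coe_subtype, hm]
  refine Nat.pow_le_pow_right hp.out.pos ?_
  by_cases hn : 1 < n
  swap
  · omega
  obtain ⟨r, k, hr, hr2, hrp, hd, hppd⟩ := exists_ppd hp.out hn
  obtain ⟨h, hh⟩ := exists_elt (F := F) (hr.odd_of_ne_two hr2).pow
    (Nat.one_lt_pow k.succ_ne_zero hr.one_lt).ne' (hF ▸ hd) ht0
  obtain ⟨h, rfl⟩ := e.surjective h
  rw [← ht, ← map_inv, ← map_mul, ← map_mul, ← map_mul, ← map_pow, MulEquiv.orderOf_eq,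
    ← orderOf_coe] at hh
  set g : G := (((s * (h * s * h⁻¹)) ^ 2 : H) : G) with hg
  have hgH : g ∈ H := Subtype.prop _
  obtain ⟨l, hl0, hl⟩ := hix (g ^ r ^ k) (H.pow_mem hgH _) (by
    rw [Ne, ← orderOf_dvd_iff_pow_eq_one, hh, Nat.pow_dvd_pow_iff_le_right hr.one_lt]; omega)
  have hdv := dvd_sub hr hh (hHV hgH)
  obtain ⟨b, hb⟩ := (hVp.to_le (inf_le_left (b := centralizer {g ^ r ^ k}))).exists_card_eq
  have hc := card_mul_index ((V ⊓ centralizer ({g ^ r ^ k} : Set G)).subgroupOf V)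
  rw [Nat.card_congr (subgroupOfEquivOfLe inf_le_left).toEquiv, ← relIndex, hl] at hc
  rw [← hc, ← Nat.mul_sub_one, hb] at hdv
  have h2 := hppd l hl0 ((((Nat.coprime_primes hr hp.out).2 hrp).pow _ _).dvd_of_dvd_mul_left hdv)
  have h3 : (V ⊓ centralizer ({(h * s * (h : G)⁻¹ : G)} : Set G)).relIndex V = p ^ m := by
    have c1 : V.map (MulAut.conj (h : G)).toMonoidHom = V := by
      ext v
      rw [mem_map_equiv]
      simpa using (mem_normalizer_iff''.1 (hHV h.2) v).symm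
    have c2 : (V ⊓ centralizer ({(s : G)} : Set G)).map (MulAut.conj (h : G)).toMonoidHom =
        V ⊓ centralizer ({(h * s * (h : G)⁻¹ : G)} : Set G) := by
      rw [map_inf _ _ _ (MulAut.conj (h : G)).injective, c1]
      congr 1
      ext v
      rw [mem_map_equiv, mem_centralizer_singleton_iff, mem_centralizer_singleton_iff]
      simp only [MulAut.conj_symm_apply]
      constructor <;> intro e
      · calc _ = h * ((h : G)⁻¹ * v * h * s) * (h : G)⁻¹ := by group
          _ = _ := by rw [e]; group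
      · calc _ = (h : G)⁻¹ * (v * (h * s * (h : G)⁻¹)) * h := by group
          _ = _ := by rw [e]; group
    have c3 := relIndex_map_map_of_injective (V ⊓ centralizer ({(s : G)} : Set G)) V
      (MulAut.conj (h : G)).injective (f := (MulAut.conj (h : G)).toMonoidHom)
    rwa [c1, c2, hm] at c3
  have h4 : (V ⊓ centralizer ({(s : G)} : Set G)) ⊓ (V ⊓ centralizer ({(h * s * (h : G)⁻¹ : G)} : Set G)) ≤
      V ⊓ centralizer ({g ^ r ^ k} : Set G) := fun v hv => ⟨hv.1.1, by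
    have c1 : Commute v s := mem_centralizer_singleton_iff.1 hv.1.2
    have c2 : Commute v (h * s * (h : G)⁻¹ : G) := mem_centralizer_singleton_iff.1 hv.2.2
    exact mem_centralizer_singleton_iff.2 (((c1.mul_right c2).pow_right 2).pow_right _)⟩
  have h5 := (Nat.le_of_dvd (Nat.pos_of_ne_zero (FiniteIndex.index_ne_zero))
    (relIndex_dvd_of_le_left V h4)).trans relIndex_inf_le
  rw [hl, hm, h3, ← pow_add, Nat.pow_le_pow_iff_right hp.out.one_lt] at h5
  omega

end Cfsg.Agent.H22.Nt
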