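import Mathlib

/-! The Krull–Remak–Schmidt theorem for finite groups. -/

set_option autoImplicit false
set_option linter.style.haveILetI false

namespace Cfsg.Agent.H22K

open Subgroup

/-- directly indecomposable -/
def Ind (A : Type*) [Group A] : Prop :=
  Nontrivial A ∧ ∀ H K : Subgroup A, H.Normal → K.Normal → H ⊓ K = ⊥ → H ⊔ K = ⊤ → H = ⊥ ∨ K = ⊥

/-- normal endomorphisms -/
def NE {A : Type*} [Group A] (f : A →* A) : Prop := ∀ g a, f (g * a * g⁻¹) = g * f a * g⁻¹

variable {A : Type*} [Group A] [Finite A]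

theorem split_of_retract {B : Type*} [Group B] (h : Ind B) (α : A →* B) (β : B →* A)
    (hα : α.range.Normal) (e : ∀ a, β (α a) = a) : α.range = ⊥ ∨ β.ker = ⊥ := by
  refine h.2 _ _ hα inferInstance ?_ ?_
  · rw [eq_bot_iff]
    rintro _ ⟨⟨a, rfl⟩, h2⟩
    have h3 : β (α a) = 1 := h2
    rw [e] at h3
    simp [h3]
  · rw [eq_top_iff]
    intro b _
    rw [show b = α (β b) * ((α (β b))⁻¹ * b) by group]
    exact mul_mem_sup ⟨_, rfl⟩ (by simp [MonoidHom.mem_ker, e])

theorem fitting (h : Ind A) {f : A →* A} (hf : NE f) :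
    Function.Injective f ∨ ∀ a, f a = a → a = 1 := by
  obtain ⟨i, j, hij, e⟩ : ∃ i j : ℕ, i < j ∧ f^[i] = f^[j] := by
    obtain ⟨i, j, h1, h2⟩ := Finite.exists_ne_map_eq_of_infinite (fun n : ℕ => f^[n])
    rcases lt_or_gt_of_ne h1 with a | a
    exacts [⟨i, j, a, h2⟩, ⟨j, i, a, h2.symm⟩]
  obtain ⟨d, rfl⟩ := Nat.exists_eq_add_of_lt hij
  have k : ∀ c m, f^[m + i + c * (d + 1)] = f^[m + i] := fun c m => by
    induction c with
    | zero => simp
    | succ c ih =>
      rw [show m + i + (c + 1) * (d + 1) = (m + c * (d + 1)) + (i + d + 1) by ring,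
        Function.iterate_add, ← e, ← Function.iterate_add, ← ih]
      congr 1; ring
  set n := (i + 1) * (d + 1)
  have k2 : f^[n + n] = f^[n] := by
    have := k (i + 1) (n - i)
    rwa [Nat.sub_add_cancel (by simp only [n]; nlinarith)] at this
  obtain ⟨F, hF⟩ : ∃ F : A →* A, ∀ a, F a = f^[n] a :=
    ⟨MonoidHom.mk' f^[n] (iterate_map_mul f n), fun _ => rfl⟩
  have h3 : ∀ m g a, f^[m] (g * a * g⁻¹) = g * f^[m] a * g⁻¹ := fun m g a => by
    induction m with
    | zero => rfl
    | succ m ih => rw [Function.iterate_succ_apply', ih, hf, Function.iterate_succ_apply']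
  have hn : F.range.Normal := ⟨by
    rintro _ ⟨a, rfl⟩ g
    exact ⟨g * a * g⁻¹, by rw [hF, hF, h3]⟩⟩
  have h4 : ∀ a, F (F a) = F a := fun a => by rw [hF, hF, ← Function.iterate_add_apply, k2]
  have := h.2 F.range F.ker hn inferInstance (by
    rw [eq_bot_iff]
    rintro _ ⟨⟨a, rfl⟩, h2⟩
    have h3 : F (F a) = 1 := h2
    rw [h4] at h3
    simp [h3]) (by
    rw [eq_top_iff]
    intro b _
    rw [show b = F b * ((F b)⁻¹ * b) by group]
    exact mul_mem_sup ⟨_, rfl⟩ (by simp [MonoidHom.mem_ker, h4]))
  rcases this with a | a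
  · refine Or.inr fun x hx => ?_
    have : F x ∈ F.range := ⟨x, rfl⟩
    rwa [a, mem_bot, hF, Function.iterate_fixed hx] at this
  · refine Or.inl ((injective_iff_map_eq_one f).2 fun x hx => ?_)
    have : x ∈ F.ker := by
      rw [MonoidHom.mem_ker, hF, show n = (n - 1) + 1 from (Nat.sub_add_cancel (Nat.succ_le_of_lt
        (by positivity))).symm, Function.iterate_succ_apply, hx]
      exact Function.iterate_fixed (map_one f) _
    rwa [a, mem_bot] at this

theorem inj_or (h : Ind A) {f g θ : A →* A} (hf : NE f) (hθ : NE θ) (h1 : Function.Injective θ)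
    (e : ∀ a, θ a = f a * g a) : Function.Injective f ∨ Function.Injective g := by
  let η := MulEquiv.ofBijective θ ⟨h1, Finite.injective_iff_surjective.1 h1⟩
  have hη : NE (η.symm.toMonoidHom.comp f) := fun x a => η.injective (by
    show η (η.symm (f _)) = θ (x * η.symm (f a) * x⁻¹)
    rw [hθ, hf, η.apply_symm_apply]
    exact congrArg (x * · * x⁻¹) (η.apply_symm_apply _).symm)
  rcases fitting h hη with a | a
  · exact Or.inl fun x y c => a (show η.symm (f x) = η.symm (f y) by rw [c])
  · refine Or.inr ((injective_iff_map_eq_one g).2 fun x hx => a x ?_)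
    show η.symm (f x) = x
    rw [MulEquiv.symm_apply_eq]
    show f x = θ x
    rw [e, hx, mul_one]

theorem exchange {κ : Type*} [Fintype κ] [DecidableEq κ] {B : κ → Type*} [∀ j, Group (B j)]
    (h : Ind A) (hB : ∀ j, Ind (B j)) (ι : A →* ∀ j, B j) (π : (∀ j, B j) →* A)
    (e : ∀ a, π (ι a) = a) (hn : ∀ g a, g * ι a * g⁻¹ = ι (π g * a * (π g)⁻¹)) :
    ∃ j, Function.Bijective fun a => ι a j := by
  let P : Finset κ → (∀ j, B j) →* ∀ j, B j := fun s =>
    MonoidHom.mk' (fun x j => if j ∈ s then x j else 1) fun x y => by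
      ext j; by_cases c : j ∈ s <;> simp [c]
  have hP : ∀ s, NE (π.comp ((P s).comp ι)) := fun s g a => by
    have : P s (ι (g * a * g⁻¹)) = ι g * P s (ι a) * (ι g)⁻¹ := by
      ext j; by_cases c : j ∈ s <;> simp [P, c]
    simp only [MonoidHom.comp_apply]
    rw [this, map_mul, map_mul, map_inv, e]
  have key : ∀ s : Finset κ, Function.Injective (π.comp ((P s).comp ι)) →
      ∃ j, Function.Injective (π.comp ((P {j}).comp ι)) := fun s => by
    induction s using Finset.induction_on with
    | empty =>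
      intro a
      haveI := h.1
      obtain ⟨x, hx⟩ := exists_ne (1 : A)
      refine absurd (a ?_) hx
      have : ∀ y, P ∅ y = 1 := fun y => by ext j; simp [P]
      simp [this]
    | insert j s hj ih =>
      intro a
      refine (inj_or h (hP {j}) (hP _) a (g := π.comp ((P s).comp ι)) fun x => ?_).elim
        (fun b => ⟨j, b⟩) ih
      simp only [MonoidHom.comp_apply]
      rw [← map_mul]
      congr 1
      ext k
      by_cases c : k = j
      · subst c; simp [P, hj]
      · simp [P, c]
  obtain ⟨j, hj⟩ := key Finset.univ (fun x y c => by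
    have : ∀ y, P Finset.univ y = y := fun y => by ext j; simp [P]
    simpa [this, e] using c)
  let η := MulEquiv.ofBijective _ ⟨hj, Finite.injective_iff_surjective.1 hj⟩
  let α : A →* B j := (Pi.evalMonoidHom B j).comp ι
  let β : B j →* A := η.symm.toMonoidHom.comp (π.comp (MonoidHom.mulSingle B j))
  have hαβ : ∀ a, β (α a) = a := fun a => by
    show η.symm _ = a
    rw [MulEquiv.symm_apply_eq]
    show π _ = π _
    congr 1
    ext k
    by_cases c : k = j
    · subst c; simp [P, α]
    · simp [P, c]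
  refine ⟨j, Function.LeftInverse.injective (g := β) hαβ, fun b => ?_⟩
  rcases split_of_retract (hB j) α β ⟨by
    rintro _ ⟨a, rfl⟩ g
    exact ⟨_, (congrFun (hn (Pi.mulSingle j g) a) j).symm.trans (by simp [α])⟩⟩ hαβ with c | c
  · haveI := h.1
    obtain ⟨x, hx⟩ := exists_ne (1 : A)
    have : α x ∈ α.range := ⟨x, rfl⟩
    rw [c, mem_bot] at this
    exact absurd (by rw [← hαβ x, this, map_one]) hx
  · exact ⟨β b, (MonoidHom.ker_eq_bot_iff β).1 c (hαβ _)⟩

universe u v

theorem krull_schmidt (m : ℕ) : ∀ {n : ℕ} {A : Fin m → Type u} {B : Fin n → Type v}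
    [∀ i, Group (A i)] [∀ j, Group (B j)] [∀ i, Finite (A i)] [∀ j, Finite (B j)],
    (∀ i, Ind (A i)) → (∀ j, Ind (B j)) → (((i : Fin m) → A i) ≃* ((j : Fin n) → B j)) →
    ∃ σ : Fin m ≃ Fin n, ∀ i, Nonempty (A i ≃* B (σ i)) := by
  induction m with
  | zero =>
    intro n A B _ _ _ _ hA hB e
    rcases n with _ | n
    · exact ⟨Equiv.refl _, fun i => i.elim0⟩
    · haveI := (hB 0).1
      obtain ⟨x, hx⟩ := exists_ne (1 : B 0)
      have := e.symm.injective (Subsingleton.elim (e.symm (Pi.mulSingle 0 x)) (e.symm 1))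
      exact absurd (by simpa using congrFun this 0) hx
  | succ m ih =>
    intro n A B _ _ _ _ hA hB e
    obtain ⟨j, hj⟩ := exchange (hA 0) hB (e.toMonoidHom.comp (MonoidHom.mulSingle A 0))
      ((Pi.evalMonoidHom A 0).comp e.symm.toMonoidHom) (fun a => by simp) fun g a => by
        obtain ⟨g, rfl⟩ := e.surjective g
        simp only [MulEquiv.toMonoidHom_eq_coe, MonoidHom.comp_apply, MonoidHom.coe_coe,
          MulEquiv.symm_apply_apply, ← map_mul, ← map_inv]
        congr 1
        ext k
        by_cases c : k = 0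
        · subst c; simp
        · simp [c]
    obtain ⟨n, rfl⟩ : ∃ k, n = k + 1 := Nat.exists_eq_succ_of_ne_zero j.pos.ne'
    let α : A 0 ≃* B j := MulEquiv.ofBijective ((Pi.evalMonoidHom B j).comp
      (e.toMonoidHom.comp (MonoidHom.mulSingle A 0))) hj
    let f : (∀ k : Fin n, B (j.succAbove k)) →* ∀ i : Fin m, A i.succ :=
      MonoidHom.mk' (fun x i => e.symm (Fin.insertNth j 1 x) i.succ) fun x y => by
        ext i
        rw [Pi.mul_apply, ← Pi.mul_apply (e.symm _), ← map_mul]
        refine congrArg (fun z => e.symm z i.succ) (funext fun k => ?_)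
        induction k using Fin.succAboveCases j <;> simp
    have hf : Function.Injective f := (injective_iff_map_eq_one f).2 fun x hx => by
      have h1 : e.symm (Fin.insertNth j 1 x) = Pi.mulSingle 0 (e.symm (Fin.insertNth j 1 x) 0) := by
        ext i
        induction i using Fin.cases with
        | zero => simp
        | succ i => exact (congrFun hx i).trans (by simp)
      rw [MulEquiv.symm_apply_eq] at h1
      have h2 : α (e.symm (Fin.insertNth j 1 x) 0) = 1 := by
        have := congrFun h1 j
        rw [Fin.insertNth_apply_same] at this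
        exact this.symm
      rw [map_eq_one_iff _ α.injective] at h2
      rw [h2] at h1
      ext k
      simpa using congrFun h1 (j.succAbove k)
    have hc : Nat.card (∀ k : Fin n, B (j.succAbove k)) = Nat.card (∀ i : Fin m, A i.succ) := by
      have := Nat.card_congr e.toEquiv
      rw [Nat.card_pi, Nat.card_pi, Fin.prod_univ_succ, Fin.prod_univ_succAbove _ j,
        Nat.card_congr α.toEquiv] at this
      rw [Nat.card_pi, Nat.card_pi]
      exact (Nat.eq_of_mul_eq_mul_left Nat.card_pos this).symm
    obtain ⟨σ, hσ⟩ := ih (fun i => hA _) (fun k => hB _)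
      (MulEquiv.ofBijective f ((Nat.bijective_iff_injective_and_card f).2 ⟨hf, hc⟩)).symm
    refine ⟨(finSuccEquiv m).trans (σ.optionCongr.trans (finSuccEquiv' j).symm), fun i => ?_⟩
    induction i using Fin.cases with
    | zero => exact ⟨α⟩
    | succ i =>
      have : (finSuccEquiv m).trans (σ.optionCongr.trans (finSuccEquiv' j).symm) i.succ =
        j.succAbove (σ i) := by simp
      rw [this]
      exact hσ i

end Cfsg.Agent.H22K
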