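import Mathlib

/-! A verified search on the numbers of elements of each order (Frobenius' theorem as input). -/

set_option autoImplicit false

namespace Cfsg.Agent.H22.Nse

def dl (m : ℕ) : List ℕ := (List.range (m + 1)).filter (fun e => m % e == 0)

def sm (d : ℕ) (acc : List (ℕ × ℕ)) : ℕ := ((acc.filter (fun t => d % t.1 == 0)).map Prod.snd).sum

def nz (d : ℕ) (acc : List (ℕ × ℕ)) : Bool := acc.all (fun t => !(d % t.1 == 0) || !(t.2 == 0))

def ok (o d x : ℕ) (acc : List (ℕ × ℕ)) : Bool :=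
  (x + sm d acc) % d == 0 && ((!(d == 1) || x == 1) && ((!(d == 2) || x == o) &&
    (x == 0 || (nz d acc && x % Nat.totient d == 0))))

def go (S : List ℕ) (o : ℕ) (P : List (ℕ × ℕ) → Bool) : List ℕ → List (ℕ × ℕ) → Bool
  | [], acc => P acc
  | d :: ds, acc => (0 :: S).any fun x => ok o d x acc && go S o P ds ((d, x) :: acc)

structure Hyp (S : List ℕ) (o N : ℕ) (s : ℕ → ℕ) : Prop where
  pos : N ≠ 0
  mem : ∀ d, s d = 0 ∨ s d ∈ S
  all : ∀ v ∈ S, ∃ d, d ∣ N ∧ s d = v
  one : s 1 = 1
  two : s 2 = o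
  ev : 2 ∣ N
  tot : ∀ d, Nat.totient d ∣ s d
  frob : ∀ d, d ∣ N → d ∣ ∑ e ∈ d.divisors, s e
  cl : ∀ d e, e ∣ d → s d ≠ 0 → s e ≠ 0
  sum : ∑ e ∈ N.divisors, s e = N

theorem mem_dl {m e : ℕ} (hm : m ≠ 0) : e ∈ dl m ↔ e ∣ m := by
  simp only [dl, List.mem_filter, List.mem_range, beq_iff_eq, ← Nat.dvd_iff_mod_eq_zero]
  exact ⟨fun h => h.2, fun h => ⟨Nat.lt_succ_of_le (Nat.le_of_dvd (Nat.pos_of_ne_zero hm) h), h⟩⟩

theorem sorted_dl (m : ℕ) : (dl m).Pairwise (· < ·) := List.pairwise_lt_range.filter _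

theorem nodup_of {l : List ℕ} (h : l.Pairwise (· < ·)) : l.Nodup := h.imp fun a => a.ne

variable {S : List ℕ} {o N : ℕ} {s : ℕ → ℕ}

theorem ok_true (H : Hyp S o N s) {m d : ℕ} (hm : m ∣ N) {pre ds : List ℕ}
    (h : pre.reverse ++ d :: ds = dl m) : ok o d (s d) (pre.map fun e => (e, s e)) = true := by
  have m0 : m ≠ 0 := fun e => H.pos (by simpa [e] using hm)
  have hs := sorted_dl m
  rw [← h, List.pairwise_append, List.pairwise_cons] at hs
  have hd : d ∣ m := (mem_dl m0).1 (by rw [← h]; simp)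
  have d0 : d ≠ 0 := fun e => m0 (by simpa [e] using hd)
  have nd : pre.Nodup := List.nodup_reverse.1 (nodup_of hs.1)
  have e1 : (pre.filter fun e => d % e == 0).toFinset = d.properDivisors := by
    ext e
    simp only [List.mem_toFinset, List.mem_filter, beq_iff_eq, ← Nat.dvd_iff_mod_eq_zero,
      Nat.mem_properDivisors]
    refine ⟨fun a => ⟨a.2, hs.2.2 e (List.mem_reverse.2 a.1) d (by simp)⟩, fun a => ⟨?_, a.1⟩⟩
    have : e ∈ dl m := (mem_dl m0).2 (a.1.trans hd)
    rw [← h, List.mem_append, List.mem_cons] at this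
    rcases this with b | b | b
    · exact List.mem_reverse.1 b
    · exact absurd a.2 (by omega)
    · exact absurd a.2 (by have := hs.2.1.1 e b; omega)
  have e2 : sm d (pre.map fun e => (e, s e)) = ∑ e ∈ d.properDivisors, s e := by
    rw [← e1, List.sum_toFinset _ (nd.filter _), sm, List.filter_map, List.map_map]
    rfl
  have e3 := H.frob d (hd.trans hm)
  rw [← Nat.insert_self_properDivisors d0, Finset.sum_insert Nat.self_notMem_properDivisors,
    ← e2] at e3
  simp only [ok, Bool.and_eq_true, Bool.or_eq_true, beq_iff_eq, Bool.not_eq_true', beq_eq_false_iff_ne,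
    ← Nat.dvd_iff_mod_eq_zero]
  refine ⟨e3, ?_, ?_, ?_⟩
  · by_cases a : d = 1
    · exact .inr (a ▸ H.one)
    · exact .inl a
  · by_cases a : d = 2
    · exact .inr (a ▸ H.two)
    · exact .inl a
  · by_cases a : s d = 0
    · exact .inl a
    · refine .inr ⟨?_, H.tot d⟩
      simp only [nz, List.all_eq_true, List.mem_map, Bool.or_eq_true, Bool.not_eq_true',
        beq_eq_false_iff_ne]
      rintro _ ⟨e, -, rfl⟩
      by_cases b : e ∣ d
      · exact .inr (H.cl d e b a)
      · exact .inl (fun c => b (Nat.dvd_of_mod_eq_zero c))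

theorem go_sound (H : Hyp S o N s) (P : List (ℕ × ℕ) → Bool) {m : ℕ} (hm : m ∣ N) :
    ∀ ds pre : List ℕ, pre.reverse ++ ds = dl m →
      go S o P ds (pre.map fun e => (e, s e)) = false →
      P ((dl m).reverse.map fun e => (e, s e)) = false
  | [], pre, h, a => by
    rw [← h]; simpa [go] using a
  | d :: ds, pre, h, a => by
    refine go_sound H P hm ds (d :: pre) (by simpa using h) ?_
    rw [go, List.any_eq_false] at a
    have := a (s d) (by rcases H.mem d with b | b <;> simp [b])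
    rw [ok_true H hm h] at this
    simpa using this

def compB (p : ℕ) : Bool := p < 2 || (List.range p).any (fun a => 2 ≤ a && p % a == 0)

theorem not_prime {p : ℕ} (h : compB p = true) : ¬ p.Prime := fun hp => by
  simp only [compB, Bool.or_eq_true, decide_eq_true_eq, List.any_eq_true, List.mem_range,
    Bool.and_eq_true, beq_iff_eq, ← Nat.dvd_iff_mod_eq_zero] at h
  rcases h with h | ⟨a, h1, h2, h3⟩
  · have := hp.two_le; omega
  · rcases (Nat.dvd_prime hp).1 h3 with b | b <;> omega

def primesB (S : List ℕ) (o B M : ℕ) (e : ℕ → ℕ) : Bool :=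
  S.all (fun v => v < B) && (List.range (B + 1)).all fun p => compB p ||
    (M % p ^ e p == 0 && !go S o (fun _ => true) (dl (Nat.lcm 2 (p ^ (e p + 1)))) [])

def finP (S : List ℕ) (N N0 : ℕ) (ex acc : List (ℕ × ℕ)) : Bool :=
  (acc.map Prod.snd).sum == N && (S.all (fun v => acc.any (fun t => t.2 == v)) &&
    !(N == N0 && ex.all (fun t => acc.any (fun u => u.1 == t.1 && u.2 == t.2))))

def finB (S : List ℕ) (o M N0 : ℕ) (ex : List (ℕ × ℕ)) : Bool :=
  (dl M).all fun N => !(N % 2 == 0) || !go S o (finP S N N0 ex) (dl N) []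

theorem dvd_of (H : Hyp S o N s) {B M : ℕ} {e : ℕ → ℕ} (hB : 0 < B)
    (h : primesB S o B M e = true) : N ∣ M := by
  simp only [primesB, Bool.and_eq_true, List.all_eq_true, decide_eq_true_eq, List.mem_range,
    Bool.or_eq_true, beq_iff_eq, ← Nat.dvd_iff_mod_eq_zero, Bool.not_eq_true'] at h
  rw [Nat.dvd_iff_prime_pow_dvd_dvd]
  intro p k hp hk
  rcases k with _ | k
  · simp
  have h1 : p ∣ N := (dvd_pow_self p k.succ_ne_zero).trans hk
  have h2 := H.frob p h1
  rw [hp.sum_divisors, H.one] at h2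
  have h3 : p ≤ s p + 1 := Nat.le_of_dvd (by omega) h2
  have h4 : s p < B := by
    rcases H.mem p with a | a
    · omega
    · exact h.1 _ a
  rcases h.2 p (by omega) with a | ⟨a, b⟩
  · exact absurd hp (not_prime a)
  · by_cases c : k + 1 ≤ e p
    · exact (pow_dvd_pow p c).trans a
    · have := go_sound H (fun _ => true) (Nat.lcm_dvd H.ev ((pow_dvd_pow p (by omega)).trans hk))
        _ [] rfl b
      simp at this

theorem main (H : Hyp S o N s) {B M N0 : ℕ} {e : ℕ → ℕ} {ex : List (ℕ × ℕ)} (hB : 0 < B)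
    (hM : M ≠ 0) (h : primesB S o B M e = true) (h' : finB S o M N0 ex = true) :
    N = N0 ∧ ∀ t ∈ ex, s t.1 = t.2 := by
  have h1 := dvd_of H hB h
  simp only [finB, List.all_eq_true, Bool.or_eq_true, Bool.not_eq_true', beq_eq_false_iff_ne] at h'
  rcases h' N ((mem_dl hM).2 h1) with a | a
  · exact absurd (Nat.mod_eq_zero_of_dvd H.ev) a
  have b := go_sound H _ dvd_rfl _ [] rfl a
  have c : (((dl N).reverse.map fun e => (e, s e)).map Prod.snd).sum = N := by
    rw [List.map_map, List.map_reverse, List.sum_reverse]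
    have : (dl N).toFinset = N.divisors := by
      ext e; simp [mem_dl H.pos, H.pos]
    conv_rhs => rw [← H.sum, ← this, List.sum_toFinset _ (nodup_of (sorted_dl N))]
    rfl
  have d : S.all (fun v => ((dl N).reverse.map fun e => (e, s e)).any (fun t => t.2 == v)) = true := by
    simp only [List.all_eq_true, List.any_eq_true, beq_iff_eq]
    intro v hv
    obtain ⟨d, h2, h3⟩ := H.all v hv
    exact ⟨(d, s d), List.mem_map.2 ⟨d, List.mem_reverse.2 ((mem_dl H.pos).2 h2), rfl⟩, h3⟩
  rw [finP, c, d] at b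
  simp only [beq_self_eq_true, Bool.true_and, Bool.not_eq_false', Bool.and_eq_true, beq_iff_eq,
    List.all_eq_true, List.any_eq_true, List.mem_map] at b
  refine ⟨b.1, fun t ht => ?_⟩
  obtain ⟨_, ⟨u, -, rfl⟩, h2, h3⟩ := b.2 t ht
  rw [← h2, ← h3]

theorem p4 : primesB [1, 3, 8] 3 9 36 (fun p => if p = 2 then 2 else if p = 3 then 2 else 0) = true := by
  decide +kernel
theorem f4 : finB [1, 3, 8] 3 36 12 [(6, 0)] = true := by decide +kernel
theorem p5 : primesB [1, 15, 20, 24] 15 25 14400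
    (fun p => if p = 2 then 6 else if p = 3 then 2 else if p = 5 then 2 else 0) = true := by
  decide +kernel
theorem f5 : finB [1, 15, 20, 24] 15 14400 60 [(6, 0), (10, 0), (15, 0)] = true := by decide +kernel
theorem p6 : primesB [1, 45, 80, 90, 144] 45 145 37800
    (fun p => if p = 2 then 3 else if p = 3 then 3 else if p = 5 then 2 else
      if p = 7 then 1 else 0) = true := by
  decide +kernel
theorem f6 : finB [1, 45, 80, 90, 144] 45 37800 360
    [(6, 0), (10, 0), (15, 0), (3, 80), (5, 144)] = true := by decide +kernel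

end Cfsg.Agent.H22.Nse
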