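import Cfsg.Agent.H22.Nse
import Cfsg.Agent.H25.CycCount
import Cfsg.Agent.H12.SmallRecog
import Cfsg.Agent.S0497

/-! Groups with the same-order counts of `A₄`, `A₅`, `A₆`. -/

set_option autoImplicit false
set_option linter.style.haveILetI false

namespace Cfsg.Agent.H22.Nse
open Subgroup

/-- The number of elements of order `d`. -/
noncomputable def sg (G : Type*) [Group G] (d : ℕ) : ℕ := Nat.card {g : G // orderOf g = d}

variable {G : Type*} [Group G] [Finite G]

theorem sg_ne {d : ℕ} : sg G d ≠ 0 ↔ ∃ g : G, orderOf g = d := by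
  rw [sg, Nat.card_ne_zero]
  exact ⟨fun h => let ⟨g⟩ := h.1; ⟨g.1, g.2⟩, fun ⟨g, h⟩ => ⟨⟨⟨g, h⟩⟩, inferInstance⟩⟩

omit [Finite G] in
theorem sg_one : sg G 1 = 1 := by
  simp [sg]

theorem sum_sg {n : ℕ} (hn : n ≠ 0) : ∑ e ∈ n.divisors, sg G e = Nat.card {x : G // x ^ n = 1} := by
  classical
  haveI := Fintype.ofFinite G
  simp only [sg, Nat.card_eq_fintype_card, Fintype.card_subtype]
  exact sum_card_orderOf_eq_card_pow_eq_one hn

theorem hyp {S : List ℕ} {o : ℕ} (ho : o ∈ S) (h1 : Odd o) (h2 : o ≠ 1)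
    (h : (fun m : ℕ => Nat.card {g : G // orderOf g = m}) '' Set.range (orderOf : G → ℕ) =
      {v | v ∈ S}) : Hyp S o (Nat.card G) (sg G) := by
  have a : ∀ v ∈ S, ∃ g : G, sg G (orderOf g) = v := fun v hv => by
    obtain ⟨_, ⟨g, rfl⟩, e⟩ : v ∈ (fun m : ℕ => Nat.card {g : G // orderOf g = m}) ''
      Set.range (orderOf : G → ℕ) := h ▸ hv
    exact ⟨g, e⟩
  obtain ⟨t, ht⟩ := a o ho
  have t2 : orderOf t = 2 := by
    have b := H25.totient_dvd_card_order (G := G) (orderOf t)
    change _ ∣ sg G _ at b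
    rw [ht] at b
    have c : ¬ 2 < orderOf t := fun c =>
      (Nat.not_even_iff_odd.2 h1) ((Nat.totient_even c).trans_dvd b)
    have d : orderOf t ≠ 1 := fun e => h2 (by rw [← ht, e, sg_one])
    have := orderOf_pos t
    omega
  refine ⟨Nat.card_pos.ne', fun d => ?_, fun v hv => ?_, sg_one, t2 ▸ ht, t2 ▸ orderOf_dvd_natCard t,
    H25.totient_dvd_card_order, fun d hd => ?_, fun d e he hd => ?_, ?_⟩
  · by_cases b : sg G d = 0
    · exact .inl b
    · obtain ⟨g, rfl⟩ := sg_ne.1 b
      exact .inr (show sg G (orderOf g) ∈ {v | v ∈ S} from h ▸ ⟨_, ⟨g, rfl⟩, rfl⟩)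
  · obtain ⟨g, e⟩ := a v hv
    exact ⟨_, orderOf_dvd_natCard g, e⟩
  · rw [sum_sg (fun e => Nat.card_pos.ne' (by simpa [e] using hd))]
    exact H26.dvd_card_pow_eq_one hd
  · obtain ⟨g, rfl⟩ := sg_ne.1 hd
    exact sg_ne.2 ⟨_, orderOf_pow_orderOf_div (orderOf_pos g).ne' he⟩
  · rw [sum_sg Nat.card_pos.ne']
    simp [pow_card_eq_one']

/-- If no element has order 6, 10 or 15, centralisers of elements of prime order are `p`-groups. -/
theorem cent {x : G} {p : ℕ} (hp : p.Prime) (hx : orderOf x = p) (hN : Nat.card G ∣ 360)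
    (h6 : sg G 6 = 0) (h10 : sg G 10 = 0) (h15 : sg G 15 = 0) :
    ∃ k, Nat.card (centralizer ({x} : Set G)) = p ^ k := by
  have pr : ∀ q : ℕ, q.Prime → q ∣ 360 → q = 2 ∨ q = 3 ∨ q = 5 := fun q hq h => by
    have : q ∣ 2 ^ 3 * 3 ^ 2 * 5 := h
    rcases (hq.dvd_mul).1 this with a | a
    · rcases (hq.dvd_mul).1 a with b | b
      · exact .inl ((Nat.prime_dvd_prime_iff_eq hq Nat.prime_two).1 (hq.dvd_of_dvd_pow b))
      · exact .inr (.inl ((Nat.prime_dvd_prime_iff_eq hq Nat.prime_three).1 (hq.dvd_of_dvd_pow b)))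
    · exact .inr (.inr ((Nat.prime_dvd_prime_iff_eq hq Nat.prime_five).1 a))
  refine ⟨_, Nat.eq_prime_pow_of_unique_prime_dvd Nat.card_pos.ne' fun {q} hq hd => ?_⟩
  by_contra hne
  haveI := Fact.mk hq
  obtain ⟨y, hy⟩ := exists_prime_orderOf_dvd_card' q hd
  have hc : Commute x y := mem_centralizer_singleton_iff.1 y.2 |>.symm
  have e := hc.orderOf_mul_eq_mul_orderOf_of_coprime (by
    rw [hx, orderOf_coe, hy]; exact (Nat.coprime_primes hp hq).2 (Ne.symm hne))
  rw [hx, orderOf_coe, hy] at e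
  have f := sg_ne.2 ⟨_, e⟩
  rcases pr p hp ((hx ▸ orderOf_dvd_natCard x).trans hN) with rfl | rfl | rfl <;>
    rcases pr q hq ((hd.trans (card_subgroup_dvd_card _)).trans hN) with rfl | rfl | rfl <;>
    first | exact hne rfl | exact f h6 | exact f h10 | exact f h15

theorem cent_le {x : G} {p : ℕ} (hp : p.Prime) (hx : orderOf x = p) (hN : Nat.card G ∣ 360)
    (h6 : sg G 6 = 0) (h10 : sg G 10 = 0) (h15 : sg G 15 = 0) :
    IsPrimePow (Nat.card (centralizer ({x} : Set G))) := by
  obtain ⟨k, hk⟩ := cent hp hx hN h6 h10 h15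
  refine ⟨p, k, hp.prime, Nat.pos_of_ne_zero fun e => ?_, hk.symm⟩
  have := orderOf_dvd_natCard (⟨x, mem_centralizer_singleton_iff.2 rfl⟩ : centralizer ({x} : Set G))
  rw [hk, e, ← orderOf_coe, hx] at this
  exact hp.one_lt.ne' (by simpa using this)

theorem pp360 {c : ℕ} (h : IsPrimePow c) (hc : c ∣ 360) : c ≤ 9 := by
  obtain ⟨p, k, hp, hk, rfl⟩ := (isPrimePow_nat_iff c).1 h
  have a := (hp.pow_dvd_iff_le_factorization (by norm_num)).1 hc
  have b : p ∣ 360 := (dvd_pow_self p hk.ne').trans hc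
  have : p ≤ 5 := by
    have : p ∣ 2 ^ 3 * 3 ^ 2 * 5 := b
    rcases (hp.dvd_mul).1 this with a | a
    · rcases (hp.dvd_mul).1 a with b | b <;>
        have := Nat.le_of_dvd (by norm_num) (hp.dvd_of_dvd_pow b) <;> omega
    · exact Nat.le_of_dvd (by norm_num) a
  by_contra hl
  have k4 : k < 4 := by
    by_contra k4
    have h2 := hp.two_le
    have := (pow_dvd_pow p (not_lt.1 k4)).trans hc
    interval_cases p <;> simp_all
  have h2 := hp.two_le
  interval_cases p <;> interval_cases k <;> simp_all <;> norm_num at hp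

theorem ncn (hN : Nat.card G = 12 ∨ Nat.card G = 60)
    (h6 : sg G 6 = 0) (h10 : sg G 10 = 0) (h15 : sg G 15 = 0) : H12.NoCyclicNormal G := by
  refine H12.noCyclicNormal_of_prime fun p x hp hx _ hi => ?_
  have d : Nat.card G ∣ 360 := by rcases hN with a | a <;> rw [a] <;> norm_num
  have a := pp360 (cent_le hp hx d h6 h10 h15) ((card_subgroup_dvd_card _).trans d)
  obtain ⟨k, hk⟩ := cent hp hx d h6 h10 h15
  have b := (centralizer ({x} : Set G)).card_mul_index
  have c : p ∣ Nat.card G := hx ▸ orderOf_dvd_natCard x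
  have e : Nat.card (centralizer ({x} : Set G)) ∣ Nat.card G := card_subgroup_dvd_card _
  have p5 : p ≤ 5 := by
    have : p ∣ 2 ^ 3 * 3 ^ 2 * 5 := c.trans d
    rcases (hp.dvd_mul).1 this with a | a
    · rcases (hp.dvd_mul).1 a with b | b <;>
        have := Nat.le_of_dvd (by norm_num) (hp.dvd_of_dvd_pow b) <;> omega
    · exact Nat.le_of_dvd (by norm_num) a
  have h2 := hp.two_le
  rw [hk] at a b e
  have k4 : k < 4 := by
    by_contra k4
    have := Nat.pow_le_pow_right hp.pos (not_lt.1 k4)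
    have := Nat.pow_le_pow_left h2 4
    omega
  generalize (centralizer ({x} : Set G)).index = i at *
  rcases hN with h | h <;> rw [h] at b c e <;> interval_cases p <;> interval_cases k <;>
    first | omega | norm_num at hp

theorem sub_normal (K : Subgroup G) [K.Normal] {d : ℕ} (hd : d.Coprime K.index) {g : G}
    (hg : orderOf g = d) : g ∈ K := by
  rw [← QuotientGroup.eq_one_iff, ← orderOf_eq_one_iff]
  refine Nat.eq_one_of_dvd_coprimes hd ?_ (orderOf_dvd_natCard _)
  exact hg ▸ orderOf_map_dvd (QuotientGroup.mk' K) g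

theorem simple (hN : Nat.card G = 360) (h6 : sg G 6 = 0) (h10 : sg G 10 = 0) (h15 : sg G 15 = 0)
    (h3 : sg G 3 = 80) (h5 : sg G 5 = 144) : IsSimpleGroup G := by
  haveI : Nontrivial G := Finite.one_lt_card_iff_nontrivial.1 (by omega)
  refine ⟨fun K hK => ?_⟩
  by_contra hn
  push Not at hn
  have k1 : Nat.card K ≠ 1 := fun e => hn.1 (card_eq_one.1 e)
  have k2 : K.index ≠ 1 := fun e => hn.2 (index_eq_one.1 e)
  obtain ⟨p, hp, hd⟩ := Nat.exists_prime_and_dvd k1
  haveI := Fact.mk hp
  obtain ⟨x, hx⟩ := exists_prime_orderOf_dvd_card' p hd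
  rw [← orderOf_coe] at hx
  have a := pp360 (cent_le hp hx hN.dvd h6 h10 h15) ((card_subgroup_dvd_card _).trans hN.dvd)
  have b := (centralizer ({(x : G)} : Set G)).card_mul_index
  have c : (centralizer ({(x : G)} : Set G)).index ≤ Nat.card K := by
    rw [H12.index_centralizer_singleton]
    refine Set.ncard_le_ncard (t := (K : Set G)) ?_ (Set.toFinite _)
    rintro _ ⟨y, rfl⟩
    exact hK.conj_mem _ x.2 _
  have d := K.card_mul_index
  have e : ∀ q, q.Coprime K.index → sg G q ≤ Nat.card K := fun q hq =>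
    Nat.card_le_card_of_injective (fun g : {g : G // orderOf g = q} => (⟨g.1, sub_normal K hq g.2⟩ : K))
      fun u v h => Subtype.ext (congrArg (fun z : K => (z : G)) h)
  have f : (3 : ℕ).Coprime K.index → (5 : ℕ).Coprime K.index → 224 ≤ Nat.card K := fun u v => by
    have := Nat.card_le_card_of_injective
      (Sum.elim (fun g : {g : G // orderOf g = 3} => (⟨g.1, sub_normal K u g.2⟩ : K))
        (fun g : {g : G // orderOf g = 5} => (⟨g.1, sub_normal K v g.2⟩ : K))) (by
          rintro (u | u) (v | v) h <;> have h' : u.1 = v.1 := congrArg (fun z : K => (z : G)) h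
          · exact congrArg _ (Subtype.ext h')
          · have := u.2; rw [h', v.2] at this; omega
          · have := u.2; rw [h', v.2] at this; omega
          · exact congrArg _ (Subtype.ext h'))
    rw [Nat.card_sum] at this
    change sg G 3 + sg G 5 ≤ _ at this
    omega
  have e3 := e 3
  have e5 := e 5
  rw [hN] at b d
  rw [h3] at e3
  rw [h5] at e5
  have g : 40 ≤ Nat.card K := by
    by_contra g
    have := Nat.mul_le_mul a (c.trans (show Nat.card K ≤ 39 by omega))
    omega
  have i9 : K.index ≤ 9 := by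
    by_contra i9
    have := Nat.mul_le_mul g (show 10 ≤ K.index by omega)
    omega
  generalize K.index = i at *
  interval_cases i
  · omega
  · omega
  · have := f (by norm_num) (by norm_num); omega
  · have := e5 (by norm_num); omega
  · have := e5 (by norm_num); omega
  · have := e3 (by norm_num); omega
  · have := e5 (by norm_num); omega
  · omega
  · have := e5 (by norm_num); omega
  · have := e5 (by norm_num); omega

end Cfsg.Agent.H22.Nse
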