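import Mathlib

/-! Numbers of elements of each order in `A₄`, `A₅`, `A₆`. -/

set_option autoImplicit false
set_option maxRecDepth 100000

namespace Cfsg.Agent.H22.Nse

abbrev A (n : ℕ) := alternatingGroup (Fin n)

theorem a42 : Fintype.card {g : A 4 // g ^ 2 = 1 ∧ g ≠ 1} = 3 := by decide +kernel
theorem a43 : Fintype.card {g : A 4 // g ^ 3 = 1 ∧ g ≠ 1} = 8 := by decide +kernel
theorem a4 : ∀ g : A 4, g ^ 2 = 1 ∨ g ^ 3 = 1 := by decide +kernel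
theorem a52 : Fintype.card {g : A 5 // g ^ 2 = 1 ∧ g ≠ 1} = 15 := by decide +kernel
theorem a53 : Fintype.card {g : A 5 // g ^ 3 = 1 ∧ g ≠ 1} = 20 := by decide +kernel
theorem a55 : Fintype.card {g : A 5 // g ^ 5 = 1 ∧ g ≠ 1} = 24 := by decide +kernel
theorem a5 : ∀ g : A 5, g ^ 2 = 1 ∨ g ^ 3 = 1 ∨ g ^ 5 = 1 := by decide +kernel
theorem a62 : Fintype.card {g : A 6 // g ^ 2 = 1 ∧ g ≠ 1} = 45 := by decide +kernel
theorem a63 : Fintype.card {g : A 6 // g ^ 3 = 1 ∧ g ≠ 1} = 80 := by decide +kernel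
theorem a64 : Fintype.card {g : A 6 // g ^ 4 = 1 ∧ g ^ 2 ≠ 1} = 90 := by decide +kernel
theorem a65 : Fintype.card {g : A 6 // g ^ 5 = 1 ∧ g ≠ 1} = 144 := by decide +kernel
theorem a6 : ∀ g : A 6, g ^ 4 = 1 ∨ g ^ 3 = 1 ∨ g ^ 5 = 1 := by decide +kernel

end Cfsg.Agent.H22.Nse
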