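import Cfsg.Agent.BG.S04a
import Cfsg.Agent.H2.Product
import Cfsg.Prelude.Def_Balance

/-! Normal elementary abelian subgroups of order `p ^ 4` in odd `p`-groups. -/

set_option autoImplicit false
set_option linter.style.haveILetI false

namespace Cfsg.Agent.H22.Rk4

open Subgroup Cfsg.Agent.H20
open scoped commutatorElement

variable {G : Type*} [Group G] [Finite G] {p : ℕ} [hp : Fact p.Prime]

omit [Finite G] in
theorem mul_pow_c {x y : G} (h1 : Commute x ⁅y, x⁆) (h2 : Commute y ⁅y, x⁆) (n : ℕ) :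
    (x * y) ^ n = x ^ n * y ^ n * ⁅y, x⁆ ^ n.choose 2 := by
  have e : ∀ n : ℕ, y ^ n * x = ⁅y, x⁆ ^ n * (x * y ^ n) := by
    intro n
    induction n with
    | zero => simp
    | succ n ih =>
      have : y * x = ⁅y, x⁆ * (x * y) := by rw [commutatorElement_def]; group
      calc y ^ (n + 1) * x = y * (y ^ n * x) := by rw [pow_succ']; group
        _ = (y * ⁅y, x⁆ ^ n) * (x * y ^ n) := by rw [ih]; group
        _ = ⁅y, x⁆ ^ n * (y * x) * y ^ n := by rw [(h2.pow_right n).eq]; group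
        _ = _ := by rw [this, pow_succ, pow_succ' y]; group
  induction n with
  | zero => simp
  | succ n ih =>
    have c : Commute ⁅y, x⁆ (x * y ^ n * y) :=
      (h1.symm.mul_right (h2.symm.pow_right n)).mul_right h2.symm
    rw [pow_succ, ih, Nat.choose_succ_succ' n 1, Nat.choose_one_right, pow_add ⁅y, x⁆,
      mul_assoc (x ^ n * y ^ n), ((h1.mul_left h2).symm.pow_left _).eq, ← mul_assoc, ← mul_assoc,
      mul_assoc (x ^ n) _ x, e, ← mul_assoc (x ^ (n + 1) * y ^ (n + 1))]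
    congr 1
    calc x ^ n * (⁅y, x⁆ ^ n * (x * y ^ n)) * y = x ^ n * (⁅y, x⁆ ^ n * (x * y ^ n * y)) := by group
      _ = x ^ n * ((x * y ^ n * y) * ⁅y, x⁆ ^ n) := by rw [(c.pow_left n).eq]
      _ = _ := by rw [pow_succ x, pow_succ y]; group

omit [Finite G] hp in
theorem cent_of_sup {K L : Subgroup G} {x e : G} (h : K ⊔ zpowers x = L) (h1 : e ∈ C⟦K⟧)
    (h2 : x * e = e * x) : e ∈ C⟦L⟧ := by
  rw [← h, H3.centralizer_sup_zpowers]
  exact ⟨h1, mem_centralizer_singleton_iff.2 h2.symm⟩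

/-- an abelian group induces at most `p ^ 2` automorphisms on `p ^ 3`. -/
theorem idx (hG : IsPGroup p G) {A E : Subgroup G} [A.Normal] (hA : IsElementaryAbelian p A)
    (hc : Nat.card A = p ^ 3) (hE : IsMulCommutative E) : (C⟦A⟧).relIndex E ≤ p ^ 2 := by
  have p1 := hp.out.one_lt
  have p0 := hp.out.pos
  have hne : ∀ {K : Subgroup G} {k : ℕ}, Nat.card K = p ^ (k + 1) → ⊥ < K := fun {K k} h =>
    bot_lt_iff_ne_bot.2 fun e => by
      rw [e, card_bot] at h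
      exact (Nat.one_lt_pow (Nat.succ_ne_zero k) p1).ne h
  have step : ∀ {K : Subgroup G} [K.Normal] {k : ℕ}, Nat.card K = p ^ (k + 1) →
      ∃ (L : Subgroup G) (x : G), L.Normal ∧ x ∉ L ∧ (∀ g : G, ⁅g, x⁆ ∈ L) ∧ L ⊔ zpowers x = K ∧
        Nat.card L = p ^ k := fun {K} _ {k} h => by
    obtain ⟨L, x, hL, -, h1, h2, h3, h4⟩ := H3.exists_normal_sup_zpowers_eq hG (hne h)
    refine ⟨L, x, hL, h1, h3, h4, ?_⟩
    have := H3.card_sup_zpowers (p := p) (N := L) (x := x) (by rw [normalizer_eq_top]; trivial) h1 h2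
    rw [h4, h, pow_succ'] at this
    exact (Nat.eq_of_mul_eq_mul_left p0 this).symm
  obtain ⟨L, a, hL, ha1, ha2, ha3, hLc⟩ := step hc
  obtain ⟨Z, b, hZ, hb1, hb2, hb3, hZc⟩ := step hLc
  obtain ⟨Y, z, hY, hz1, hz2, hz3, hYc⟩ := step hZc
  have hY' : Y = ⊥ := by rw [← card_eq_one]; simpa using hYc
  subst hY'
  have hZcen : ∀ e : G, e ∈ C⟦Z⟧ := fun e => cent_of_sup hz3 (by simp) (by
    have := hz2 e
    rw [mem_bot, commutatorElement_eq_one_iff_mul_comm] at this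
    exact this.symm)
  have hLA : L ≤ A := ha3 ▸ le_sup_left
  have hEc := H3.isMulCommutative_iff_mem.1 hE
  by_cases h : ∀ e ∈ E, ⁅e, a⁆ ∈ Z
  · have h1 := H3.relIndex_centralizer_le h
    have h2 := H3.relIndex_centralizer_le (H := E) (fun g _ => hb2 g)
    have h3 : C₁⟦a⟧ ⊓ C₁⟦b⟧ ≤ C⟦A⟧ := fun e he =>
      cent_of_sup ha3 (cent_of_sup hb3 (hZcen e) (mem_centralizer_singleton_iff.1 he.2).symm)
        (mem_centralizer_singleton_iff.1 he.1).symm
    calc (C⟦A⟧).relIndex E ≤ (C₁⟦a⟧ ⊓ C₁⟦b⟧).relIndex E :=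
          relIndex_le_of_le_left h3 FiniteIndex.index_ne_zero
      _ ≤ (C₁⟦a⟧).relIndex E * (C₁⟦b⟧).relIndex E := relIndex_inf_le
      _ ≤ p ^ 1 * p ^ 1 := Nat.mul_le_mul (hZc ▸ h1) (hZc ▸ h2)
      _ = p ^ 2 := by ring
  · push Not at h
    obtain ⟨e₀, he₀, hc₀⟩ := h
    have hcL := ha2 e₀
    have hs : Z ⊔ zpowers ⁅e₀, a⁆ = L := by
      apply eq_of_le_of_card_ge (sup_le (hb3 ▸ le_sup_left) (zpowers_le.2 hcL))
      rw [H3.card_sup_zpowers (p := p) (by rw [normalizer_eq_top]; trivial) hc₀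
        (by rw [hA.2 _ (hLA hcL)]; exact one_mem _), hLc, hZc]
      exact le_of_eq (by ring)
    have h3 : C₁⟦a⟧ ⊓ E ≤ C⟦A⟧ := fun e he => by
      have h1 : a * e = e * a := (mem_centralizer_singleton_iff.1 he.1).symm
      have h2 : e₀ * e = e * e₀ := hEc _ he₀ _ he.2
      refine cent_of_sup ha3 (cent_of_sup hs (hZcen e) ?_) h1
      have c1 : Commute a e := h1
      have c2 : Commute e₀ e := h2
      exact (((c2.mul_left c1).mul_left c2.inv_left).mul_left c1.inv_left).eq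
    calc (C⟦A⟧).relIndex E ≤ (C₁⟦a⟧ ⊓ E).relIndex E :=
          relIndex_le_of_le_left h3 FiniteIndex.index_ne_zero
      _ = (C₁⟦a⟧).relIndex E := inf_relIndex_right _ _
      _ ≤ _ := hLc ▸ H3.relIndex_centralizer_le (H := E) (fun g _ => ha2 g)

/-- set-up: `A` a normal elementary abelian subgroup of order at most `p ^ 3` containing all elements of order `p`
of its centralizer. -/
structure St (p : ℕ) (A : Subgroup G) : Prop where
  pg : IsPGroup p G
  nm : A.Normal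
  ea : IsElementaryAbelian p A
  lt : Nat.card A < p ^ 4
  om : ∀ x ∈ C⟦A⟧, x ^ p = 1 → x ∈ A

variable {A E E' : Subgroup G}

omit [Finite G] in
theorem St.inf_eq (h : St p A) (hE : IsElementaryAbelian p E) : C⟦A⟧ ⊓ E = A ⊓ E :=
  le_antisymm (fun x hx => ⟨h.om x hx.1 (hE.2 x hx.2), hx.2⟩)
    (inf_le_inf_right _ (comm_le_cent h.ea.1))

theorem St.cards (h : St p A) (hE : IsElementaryAbelian p E) (h4 : Nat.card E = p ^ 4) :
    Nat.card A = p ^ 3 ∧ Nat.card (A ⊓ E : Subgroup G) = p ^ 2 := by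
  have p1 := hp.out.one_lt
  have p0 := hp.out.pos
  haveI := h.nm
  obtain ⟨k, hk⟩ := (IsPGroup.iff_card).1 (h.pg.to_subgroup A)
  obtain ⟨j, hj⟩ := (IsPGroup.iff_card).1 (h.pg.to_subgroup (A ⊓ E))
  have hk4 : k < 4 := (Nat.pow_lt_pow_iff_right p1).1 (hk ▸ h.lt)
  have hm : Nat.card (A ⊓ E : Subgroup G) * (C⟦A⟧).relIndex E = p ^ 4 := by
    rw [← h.inf_eq hE, ← h4, ← inf_relIndex_right, inf_comm, ← relIndex_bot_left,
      ← relIndex_bot_left, relIndex_mul_relIndex _ _ _ bot_le inf_le_left]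
  have hjk : j ≤ k := (Nat.pow_le_pow_iff_right p1).1
    (hk ▸ hj ▸ card_le_of_le (inf_le_left : A ⊓ E ≤ A))
  have hjk' : j ≠ k := fun e => by
    have h1 : A ⊓ E = A := eq_of_le_of_card_ge inf_le_left (by rw [hj, hk, e])
    have h2 : A ≤ E := h1 ▸ inf_le_right
    have h3 : E ≤ C⟦A⟧ := (comm_le_cent hE.1).trans (centralizer_le (by exact_mod_cast h2))
    have h5 : E ≤ A := fun x hx => h.om x (h3 hx) (hE.2 x hx)
    have := card_le_of_le h5
    have := h.lt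
    omega
  have hle : ∀ m, (C⟦A⟧).relIndex E ≤ p ^ m → 4 ≤ j + m := fun m hm' => by
    rw [← Nat.pow_le_pow_iff_right p1, ← hm, hj, pow_add]
    exact Nat.mul_le_mul_left _ hm'
  have hk3 : k = 3 := by
    by_contra hne
    have h1 := H3.index_centralizer_le h.pg k A hk
    have h2 : (C⟦A⟧).relIndex E ≤ (C⟦A⟧).index := by
      rw [← relIndex_top_right]
      exact relIndex_le_of_le_right le_top (by simp [FiniteIndex.index_ne_zero])
    have := hle _ (h2.trans h1)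
    have hk2 : k ≤ 2 := by omega
    interval_cases k <;> simp at this <;> omega
  subst hk3
  have := hle _ (idx h.pg h.ea hk hE.1)
  have : j = 2 := by omega
  exact ⟨hk, this ▸ hj⟩

theorem St.sup_eq (h : St p A) (hE : IsElementaryAbelian p E) (h4 : Nat.card E = p ^ 4) {a : G}
    (ha : a ∈ A) (ha' : a ∉ E) : (A ⊓ E) ⊔ zpowers a = A := by
  obtain ⟨h3, h2⟩ := h.cards hE h4
  apply eq_of_le_of_card_ge (sup_le inf_le_left (zpowers_le.2 ha))
  rw [H3.card_sup_zpowers (p := p) (N := A ⊓ E) (centralizer_le_normalizer _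
    (centralizer_le (by exact_mod_cast (inf_le_left : A ⊓ E ≤ A)) (comm_le_cent h.ea.1 ha)))
    (fun hh => ha' hh.2) (by rw [h.ea.2 a ha]; exact one_mem _), h3, h2]
  exact le_of_eq (by ring)

theorem St.cent1 (h : St p A) (hE : IsElementaryAbelian p E) (h4 : Nat.card E = p ^ 4) {a : G}
    (ha : a ∈ A) (ha' : a ∉ E) {y : G} (hy : y ∈ C⟦A ⊓ E⟧) (hc : a * y = y * a) : y ∈ C⟦A⟧ :=
  cent_of_sup (h.sup_eq hE h4 ha ha') hy hc

omit [Finite G] hp in
theorem le_cent_inf (hE : IsElementaryAbelian p E) : E ≤ C⟦A ⊓ E⟧ :=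
  (comm_le_cent hE.1).trans (centralizer_le (by exact_mod_cast (inf_le_right : A ⊓ E ≤ E)))

theorem St.norm (h : St p A) (hE : IsElementaryAbelian p E) (h4 : Nat.card E = p ^ 4) :
    A ≤ N⟦E⟧ := by
  haveI := h.nm
  obtain ⟨h3, h2⟩ := h.cards hE h4
  have p0 := hp.out.pos
  have hc := H9.card_sup_mul_card_inf' (H := E) (N := A) (by rw [normalizer_eq_top]; exact le_top)
  rw [h2, h3, h4] at hc
  have h5 : Nat.card (A ⊔ E : Subgroup G) = p ^ 5 :=
    Nat.eq_of_mul_eq_mul_right (pow_pos p0 2) (hc.trans (by ring))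
  have hr : E.relIndex (A ⊔ E) = p := by
    have := relIndex_mul_relIndex ⊥ E (A ⊔ E) bot_le le_sup_right
    rw [relIndex_bot_left, relIndex_bot_left, h4, h5] at this
    exact Nat.eq_of_mul_eq_mul_left (pow_pos p0 4) (this.trans (by ring))
  have := normalIn_of_index_minFac (le_sup_right : E ≤ A ⊔ E) (by
    rw [hr, h5]
    exact (hp.out.pow_minFac (by norm_num)).symm)
  exact le_sup_left.trans this.2

theorem St.comm_mem (h : St p A) (hE : IsElementaryAbelian p E) (h4 : Nat.card E = p ^ 4) {a e : G}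
    (ha : a ∈ A) (he : e ∈ E) : e * a * e⁻¹ * a⁻¹ ∈ A ⊓ E := by
  refine mem_inf.2 ⟨mul_mem (h.nm.conj_mem a ha e) (inv_mem ha), ?_⟩
  have := (mem_normalizer_iff.1 (h.norm hE h4 ha) e⁻¹).1 (inv_mem he)
  have e1 : e * a * e⁻¹ * a⁻¹ = e * (a * e⁻¹ * a⁻¹) := by group
  rw [e1]
  exact mul_mem he this

theorem St.surj (h : St p A) (hE : IsElementaryAbelian p E) (h4 : Nat.card E = p ^ 4) {a y : G}
    (ha : a ∈ A) (ha' : a ∉ E) (hy : y ∈ A ⊓ E) : ∃ e ∈ E, e * a * e⁻¹ * a⁻¹ = y := by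
  obtain ⟨h3, h2⟩ := h.cards hE h4
  have p0 := hp.out.pos
  let f : E ⧸ (A ⊓ E).subgroupOf E → (A ⊓ E : Subgroup G) := fun q =>
    ⟨(q.out : G) * a * (q.out : G)⁻¹ * a⁻¹, h.comm_mem hE h4 ha q.out.2⟩
  have hf : Function.Injective f := fun q q' e => by
    have e1 : (q.out : G) * a * (q.out : G)⁻¹ * a⁻¹ = (q'.out : G) * a * (q'.out : G)⁻¹ * a⁻¹ :=
      congrArg Subtype.val e
    rw [← q.out_eq', ← q'.out_eq', QuotientGroup.eq, mem_subgroupOf]
    have hm : ((q.out⁻¹ * q'.out : E) : G) ∈ E := (q.out⁻¹ * q'.out : E).2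
    refine (h.inf_eq hE).le ⟨h.cent1 hE h4 ha ha' (le_cent_inf hE hm) ?_, hm⟩
    push_cast
    have e2 := mul_right_cancel e1
    calc a * ((q.out : G)⁻¹ * q'.out) = (q.out : G)⁻¹ * (q.out * a * (q.out : G)⁻¹) * q'.out := by
          group
      _ = _ := by rw [e2]; group
  have hcard : Nat.card (E ⧸ (A ⊓ E).subgroupOf E) = Nat.card (A ⊓ E : Subgroup G) := by
    have := relIndex_mul_relIndex ⊥ (A ⊓ E) E bot_le inf_le_right
    rw [relIndex_bot_left, relIndex_bot_left, h4, h2] at this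
    rw [h2]
    exact Nat.eq_of_mul_eq_mul_left (pow_pos p0 2) (this.trans (by ring))
  obtain ⟨q, hq⟩ := ((Nat.bijective_iff_injective_and_card f).2 ⟨hf, hcard⟩).2 ⟨y, hy⟩
  exact ⟨q.out, q.out.2, congrArg Subtype.val hq⟩

theorem St.eq_of_norm (h : St p A) (h2 : p ≠ 2) (hE : IsElementaryAbelian p E)
    (h4 : Nat.card E = p ^ 4) (hE' : IsElementaryAbelian p E') (h4' : Nat.card E' = p ^ 4)
    (hn : E ≤ N⟦E'⟧) (hn' : E' ≤ N⟦E⟧) : E' = E := by
  obtain ⟨h3, hc⟩ := h.cards hE h4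
  obtain ⟨-, hc'⟩ := h.cards hE' h4'
  have p0 := hp.out.pos
  have p1 := hp.out.one_lt
  have hEc := H3.isMulCommutative_iff_mem.1 hE.1
  have hEc' := H3.isMulCommutative_iff_mem.1 hE'.1
  have h12 : A ⊓ E' = A ⊓ E := by
    by_cases hh : A ⊓ E' ≤ E
    · exact eq_of_le_of_card_ge (le_inf inf_le_left hh) (by rw [hc, hc'])
    obtain ⟨a, ha, ha'⟩ := SetLike.not_le_iff_exists.1 hh
    refine (eq_of_le_of_card_ge (fun y hy => mem_inf.2 ⟨hy.1, ?_⟩) (by rw [hc, hc']) :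
      A ⊓ E = A ⊓ E').symm
    obtain ⟨e, he, rfl⟩ := h.surj hE h4 ha.1 ha' hy
    exact mul_mem ((mem_normalizer_iff.1 (hn he) a).1 ha.2) (inv_mem ha.2)
  have hAE : ¬ A ≤ E := fun hh => by
    rw [inf_eq_left.2 hh, h3] at hc
    have := Nat.pow_right_injective p1 hc
    omega
  obtain ⟨a, ha, ha'⟩ := SetLike.not_le_iff_exists.1 hAE
  have key : ∀ x ∈ E', ∃ e ∈ E, e⁻¹ * x ∈ A := fun x hx => by
    obtain ⟨e, he, h5⟩ := h.surj hE h4 ha ha' (h12 ▸ h.comm_mem hE' h4' ha hx)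
    refine ⟨e, he, h.om _ (h.cent1 hE h4 ha ha' (mul_mem (inv_mem (le_cent_inf hE he))
      (h12 ▸ le_cent_inf hE' hx)) ?_) ?_⟩
    · have e2 := mul_right_cancel h5
      calc a * (e⁻¹ * x) = e⁻¹ * (e * a * e⁻¹) * x := by group
        _ = _ := by rw [e2]; group
    · have hz : ⁅x, e⁻¹⁆ ∈ E' ⊓ E :=
        commg_le_inf hn hn' (commutator_mem_commutator hx (inv_mem he))
      obtain ⟨k, hk⟩ : p ∣ p.choose 2 := hp.out.dvd_choose_self two_ne_zero (by
        have := hp.out.two_le; omega)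
      rw [mul_pow_c (hEc _ (inv_mem he) _ hz.2) (hEc' _ hx _ hz.1), hE.2 _ (inv_mem he), hE'.2 _ hx,
        hk, pow_mul, hE.2 _ hz.2]
      simp
  haveI := h.nm
  have hle : E' ≤ A ⊔ E := fun x hx => by
    obtain ⟨e, he, h5⟩ := key x hx
    have := mul_mem (mem_sup_right he : e ∈ A ⊔ E) (mem_sup_left h5)
    simpa using this
  by_contra hne
  have : ¬ E' ≤ E := fun hh => hne (eq_of_le_of_card_ge hh (by rw [h4, h4']))
  obtain ⟨x, hx, hx'⟩ := SetLike.not_le_iff_exists.1 this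
  obtain ⟨e, he, h5⟩ := key x hx
  have h6 : e⁻¹ * x ∉ E := fun hh => hx' (by simpa using mul_mem he hh)
  have h7 : E' ⊓ E ≤ A ⊓ E := fun y hy => by
    rw [← h.inf_eq hE]
    refine ⟨h.cent1 hE h4 h5 h6 (le_cent_inf hE hy.2) ?_, hy.2⟩
    have c1 : Commute x y := hEc' _ hx _ hy.1
    have c2 : Commute e y := hEc _ he _ hy.2
    exact (c2.inv_left.mul_left c1).eq
  have h8 := H2.card_mul_card_le hle (le_sup_right : E ≤ A ⊔ E)
  have h9 := H9.card_sup_mul_card_inf' (H := E) (N := A) (by rw [normalizer_eq_top]; exact le_top)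
  have h10 := card_le_of_le h7
  rw [hc, h3, h4] at h9
  rw [h4, h4'] at h8
  rw [hc] at h10
  have := h8.trans (Nat.mul_le_mul_left _ h10)
  rw [h9, ← pow_add, ← pow_add, Nat.pow_le_pow_iff_right p1] at this
  omega

theorem St.normal (h : St p A) (h2 : p ≠ 2) (hE : IsElementaryAbelian p E)
    (h4 : Nat.card E = p ^ 4) : E.Normal := by
  rw [← normalizer_eq_top_iff]
  by_contra hne
  haveI := h.pg.isNilpotent
  obtain ⟨g, hg, hg'⟩ := SetLike.exists_of_lt
    (Group.normalizerCondition_of_isNilpotent (G := G) N⟦E⟧ (lt_top_iff_ne_top.2 hne))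
  have hN1 : N⟦E⟧ ≤ N⟦cj g E⟧ := by
    have := (cj_le_norm_cj (g := g)).2 (le_refl N⟦E⟧)
    rwa [H21.cj_eq_of_mem_norm hg] at this
  have hN2 : cj g E ≤ N⟦E⟧ := (cj_le_iff_of_mem_norm hg).2 le_normalizer
  have := h.eq_of_norm h2 hE h4 (E' := cj g E)
    ⟨isMulCommutative_cj.2 hE.1, fun x hx => by
      obtain ⟨y, hy, rfl⟩ := hx
      rw [← map_pow, hE.2 y hy, map_one]⟩ (by simpa using h4)
    (le_normalizer.trans hN1) hN2
  exact hg' (mem_norm_of_le_cj this.ge)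

theorem main (h2 : p ≠ 2) (hG : IsPGroup p G) (hE : IsElementaryAbelian p E)
    (h4 : Nat.card E = p ^ 4) :
    ∃ A : Subgroup G, A.Normal ∧ IsElementaryAbelian p A ∧ Nat.card A = p ^ 4 := by
  have hodd : Odd (Nat.card (⊤ : Subgroup G)) := by
    obtain ⟨k, hk⟩ := (IsPGroup.iff_card).1 (hG.to_subgroup ⊤)
    rw [hk]
    exact (hp.out.odd_of_ne_two h2).pow
  obtain ⟨A, -, hA, hA1, hA2⟩ := BG.exists_max_normal_abelem (A := ⊥) (hG.to_subgroup ⊤) hodd
    (normalIn_of_normal le_top) ⟨comm_bot, by simp⟩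
  haveI hn : A.Normal := normalizer_eq_top_iff.1 (top_le_iff.1 hA.2)
  by_cases hl : Nat.card A < p ^ 4
  · refine ⟨E, St.normal ⟨hG, hn, hA1, hl, fun x hx h1 => ?_⟩ h2 hE h4, hE, h4⟩
    rw [← hA2]
    exact subset_closure ⟨⟨mem_top _, hx⟩, h1⟩
  · obtain ⟨K, h1, h3, h5⟩ := H3.exists_normal_le_card_eq hG A 4 (not_lt.1 hl)
    exact ⟨K, h1, ⟨H3.isMulCommutative_iff_mem.2 fun a ha b hb =>
      H3.isMulCommutative_iff_mem.1 hA1.1 a (h3 ha) b (h3 hb), fun a ha => hA1.2 a (h3 ha)⟩, h5⟩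

theorem card_le_map_mul_ker {X : Type*} [Group X] [Finite X] (f : X →* X) (H : Subgroup X) :
    Nat.card H ≤ Nat.card (H.map f) * Nat.card f.ker := by
  have := relIndex_mul_relIndex ⊥ (f.ker ⊓ H) H bot_le inf_le_right
  rw [relIndex_bot_left, relIndex_bot_left, inf_relIndex_right, relIndex_ker] at this
  rw [← this, mul_comm]
  exact Nat.mul_le_mul_left _ (card_le_of_le inf_le_left)

omit hp in
theorem card_cent3 [A.Normal] (hA : IsElementaryAbelian 3 A) {u : G} (hu : u ^ 3 = 1) :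
    Nat.card A ≤ Nat.card (A ⊓ C₁⟦u⟧ : Subgroup G) ^ 3 := by
  have hc := H3.isMulCommutative_iff_mem.1 hA.1
  have hn : ∀ a ∈ A, u * a * u⁻¹ ∈ A := fun a ha => Normal.conj_mem inferInstance a ha u
  let f : A →* A := MonoidHom.mk' (fun a => ⟨u * a * u⁻¹ * (a : G)⁻¹, mul_mem (hn a a.2) (inv_mem a.2)⟩)
    fun a b => Subtype.ext (by
      have := hc _ (mul_mem (hn b b.2) (inv_mem b.2)) _ (inv_mem a.2)
      push_cast
      calc u * (a * b) * u⁻¹ * ((a : G) * (b : G))⁻¹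
          = u * a * u⁻¹ * ((u * b * u⁻¹ * (b : G)⁻¹) * (a : G)⁻¹) := by group
        _ = _ := by rw [this]; group)
  have hf : ∀ a : A, ((f a : A) : G) = u * a * u⁻¹ * (a : G)⁻¹ := fun _ => rfl
  have hk : Nat.card f.ker ≤ Nat.card (A ⊓ C₁⟦u⟧ : Subgroup G) := by
    rw [← card_map_of_injective (K := f.ker) A.subtype_injective]
    refine card_le_of_le ?_
    rintro _ ⟨a, ha, rfl⟩
    refine mem_inf.2 ⟨a.2, mem_centralizer_singleton_iff.2 ?_⟩
    have := congrArg Subtype.val (MonoidHom.mem_ker.1 ha)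
    rw [hf] at this
    calc (a : G) * u = (u * a * u⁻¹ * (a : G)⁻¹) * a * u := by rw [this]; simp
      _ = _ := by simp
  have h3 : (((⊤ : Subgroup A).map f).map f).map f = ⊥ := by
    rw [eq_bot_iff]
    rintro _ ⟨_, ⟨_, ⟨a, -, rfl⟩, rfl⟩, rfl⟩
    letI : CommGroup A := { (inferInstance : Group A) with mul_comm := hA.1.is_comm.comm }
    let s : A →* A := (MulAut.conjNormal u).toMonoidHom
    have hs : ∀ a, f a = s a * a⁻¹ := fun a => Subtype.ext rfl
    have hs3 : s (s (s a)) = a := Subtype.ext (by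
      change u * (u * (u * a * u⁻¹) * u⁻¹) * u⁻¹ = a
      calc _ = u ^ 3 * a * (u ^ 3)⁻¹ := by simp only [pow_succ, pow_zero]; group
        _ = _ := by rw [hu]; simp)
    have e3 : ∀ b : A, b ^ 3 = 1 := fun b => Subtype.ext (hA.2 b b.2)
    rw [mem_bot]
    simp only [hs, map_mul, map_inv, hs3]
    calc _ = (s a) ^ 3 * ((s (s a)) ^ 3)⁻¹ := by
          apply Additive.ofMul.injective
          simp only [ofMul_mul, ofMul_inv, ofMul_pow]
          abel
      _ = 1 := by rw [e3, e3]; simp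
  have h0 := card_le_map_mul_ker f ⊤
  have h1 := card_le_map_mul_ker f ((⊤ : Subgroup A).map f)
  have h2 := card_le_map_mul_ker f (((⊤ : Subgroup A).map f).map f)
  rw [h3, card_bot, one_mul] at h2
  rw [card_top] at h0
  calc Nat.card A ≤ Nat.card f.ker * Nat.card f.ker * Nat.card f.ker :=
        h0.trans (Nat.mul_le_mul_right _ (h1.trans (Nat.mul_le_mul_right _ h2)))
    _ = Nat.card f.ker ^ 3 := by ring
    _ ≤ _ := Nat.pow_le_pow_left hk 3

omit hp in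
theorem conn (hG : IsPGroup 3 G) (hrk : ¬ PRankLE 3 3 G) : IsKConnected 3 2 G := by
  haveI : Fact (Nat.Prime 3) := ⟨Nat.prime_three⟩
  simp only [PRankLE, not_forall, not_le] at hrk
  obtain ⟨A₀, h1, h2, h3⟩ := hrk
  obtain ⟨k, hk⟩ := (IsPGroup.iff_card).1 (hG.to_subgroup A₀)
  have hk4 : 4 ≤ k := (Nat.pow_lt_pow_iff_right (by norm_num)).1 (hk ▸ h3)
  obtain ⟨E₀, hE₀⟩ := Sylow.exists_subgroup_card_pow_prime (G := A₀) 3 (n := 4)
    (hk ▸ pow_dvd_pow 3 hk4)
  have hle : E₀.map A₀.subtype ≤ A₀ := map_subtype_le _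
  have sub : ∀ {X Y : Subgroup G}, X ≤ Y → IsElementaryAbelian 3 Y → IsElementaryAbelian 3 X :=
    fun h hY => ⟨H3.isMulCommutative_iff_mem.2 fun a ha b hb =>
      H3.isMulCommutative_iff_mem.1 hY.1 a (h ha) b (h hb), fun a ha => hY.2 a (h ha)⟩
  obtain ⟨A, hn, hA, hc⟩ := main (by norm_num) hG (sub hle ⟨h1, h2⟩)
    (by rw [card_map_of_injective A₀.subtype_injective, hE₀])
  have hA1 : A ≠ ⊥ := fun e => by rw [e, card_bot] at hc; norm_num at hc
  obtain ⟨⟨z, hz⟩, hz1⟩ := ne_bot_iff_exists_ne_one.1 (H3.inf_center_ne_bot hG.isNilpotent A hA1)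
  have hz1' : z ≠ 1 := fun e => hz1 (Subtype.ext e)
  have hzo : Nat.card (zpowers z) = 3 := by
    rw [Nat.card_zpowers]; exact orderOf_eq_prime (hA.2 z hz.1) hz1'
  have hzc : ∀ g, g * z = z * g := mem_center_iff.1 hz.2
  set r := fun A B : Subgroup G => IsElementaryAbelian 3 A ∧ 3 ^ 2 ≤ Nat.card ↥A ∧
    IsElementaryAbelian 3 B ∧ 3 ^ 2 ≤ Nat.card ↥B ∧ ∀ a ∈ A, ∀ b ∈ B, a * b = b * a with hr
  have hsym : ∀ {X Y}, r X Y → r Y X := fun h =>
    ⟨h.2.2.1, h.2.2.2.1, h.1, h.2.1, fun a ha b hb => (h.2.2.2.2 b hb a ha).symm⟩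
  have key : ∀ E : Subgroup G, IsElementaryAbelian 3 E → 3 ^ 2 ≤ Nat.card E →
      Relation.ReflTransGen r E A := fun E hE h9 => by
    have : ¬ E ≤ zpowers z := fun hh => by have := card_le_of_le hh; omega
    obtain ⟨u, hu, hu'⟩ := SetLike.not_le_iff_exists.1 this
    have hzu : u ∈ C⟦zpowers z⟧ := by
      rw [← zpowers_le_cent_iff, le_centralizer_iff, zpowers_le_cent_iff]
      exact fun g _ => hzc g
    have hD9 : Nat.card (zpowers z ⊔ zpowers u : Subgroup G) = 3 * 3 := by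
      rw [H3.card_sup_zpowers (p := 3) (centralizer_le_normalizer _ hzu) hu'
        (by rw [hE.2 u hu]; exact one_mem _), hzo]
    have hDc : ∀ {X : Subgroup G}, X ≤ C₁⟦u⟧ → ∀ a ∈ X, ∀ b ∈ zpowers z ⊔ zpowers u,
        a * b = b * a := fun {X} hX a ha b hb =>
      (cent_of_sup (K := zpowers z) (x := u) rfl (e := a) (by
        rw [← zpowers_le_cent_iff, le_centralizer_iff, zpowers_le_cent_iff]
        exact fun g _ => hzc g) (mem_centralizer_singleton_iff.1 (hX ha)).symm b hb).symm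
    have hD : IsElementaryAbelian 3 (zpowers z ⊔ zpowers u) := by
      refine ⟨H3.isMulCommutative_sup_zpowers (comm_zpowers z) hzu, fun x hx => ?_⟩
      obtain ⟨_, ⟨i, rfl⟩, j, rfl⟩ := (H3.mem_sup_zpowers_iff (centralizer_le_normalizer _ hzu)).1 hx
      have c : Commute z u := (hzc u).symm
      simp only
      rw [(c.zpow_zpow i j).mul_pow, ← zpow_natCast, ← zpow_natCast, ← zpow_mul, ← zpow_mul,
        mul_comm i, mul_comm j, zpow_mul, zpow_mul, zpow_natCast, zpow_natCast, hA.2 z hz.1, hE.2 u hu]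
      simp
    have hB9 : 3 ^ 2 ≤ Nat.card (A ⊓ C₁⟦u⟧ : Subgroup G) := by
      have := card_cent3 hA (hE.2 u hu)
      obtain ⟨j, hj⟩ := (IsPGroup.iff_card).1 (hG.to_subgroup (A ⊓ C₁⟦u⟧))
      rw [hj, hc, ← pow_mul, Nat.pow_le_pow_iff_right (by norm_num)] at this
      rw [hj]
      exact Nat.pow_le_pow_right (by norm_num) (by omega)
    have hB := sub (inf_le_left : A ⊓ C₁⟦u⟧ ≤ A) hA
    refine .tail (.tail (.single (b := zpowers z ⊔ zpowers u) ⟨hE, h9, hD, hD9.ge, hDc fun a ha => ?_⟩)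
      (hsym ⟨hB, hB9, hD, hD9.ge, hDc inf_le_right⟩)) ⟨hB, hB9, hA, by rw [hc]; norm_num,
        fun a ha b hb => H3.isMulCommutative_iff_mem.1 hA.1 a ha.1 b hb⟩
    exact mem_centralizer_singleton_iff.2 (H3.isMulCommutative_iff_mem.1 hE.1 a ha u hu)
  intro E E' hE h9 hE' h9'
  haveI : Std.Symm r := ⟨fun _ _ => hsym⟩
  exact (key E hE h9).trans (symm_of (Relation.ReflTransGen r) (key E' hE' h9'))

end Cfsg.Agent.H22.Rk4
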