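import Cfsg.Agent.H22.Sp1
import Cfsg.Agent.S0127

/-! `p`-groups with a self-centralizing cyclic normal subgroup. -/

set_option autoImplicit false
set_option linter.style.haveILetI false

namespace Cfsg.Agent.H22.Sp

open Subgroup Cfsg.Agent.H11
open scoped commutatorElement

variable {G : Type*} [Group G]

instance powerClosure_char (p k : ℕ) (U : Subgroup G) [hU : U.Characteristic] :
    (powerClosure p k U).Characteristic := by
  refine characteristic_iff_map_le.2 fun φ => ?_
  rw [powerClosure, MonoidHom.map_closure]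
  refine closure_mono ?_
  rintro _ ⟨_, ⟨x, hx, rfl⟩, rfl⟩
  exact ⟨φ x, characteristic_iff_le_comap.1 hU φ hx, map_pow _ _ _⟩

instance omegaOne_char (p : ℕ) (U : Subgroup G) [hU : U.Characteristic] :
    (omegaOne p U).Characteristic := by
  refine characteristic_iff_map_le.2 fun φ => ?_
  rw [omegaOne, MonoidHom.map_closure]
  refine closure_mono ?_
  rintro _ ⟨x, ⟨hx, h1⟩, rfl⟩
  exact ⟨characteristic_iff_le_comap.1 hU φ hx, by rw [← map_pow, h1, map_one]⟩

theorem omegaOne_char_of {p : ℕ} {M : Subgroup G} (h : ∀ g : G, g ^ p = 1 → g ∈ M) :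
    (omegaOne p M).Characteristic := by
  have : omegaOne p M = omegaOne p ⊤ := by
    unfold omegaOne
    congr 1
    ext x
    exact ⟨fun a => ⟨trivial, a.2⟩, fun a => ⟨h x a.2, a.2⟩⟩
  rw [this]; infer_instance

theorem powerClosure_zpowers (p : ℕ) (a : G) : powerClosure p 1 (zpowers a) = zpowers (a ^ p) := by
  apply le_antisymm
  · rw [powerClosure, closure_le]
    rintro _ ⟨_, ⟨k, rfl⟩, rfl⟩
    refine ⟨k, ?_⟩
    simp only [pow_one]
    rw [← zpow_natCast, ← zpow_natCast, ← zpow_mul, ← zpow_mul, mul_comm]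
  · exact zpowers_le.2 (subset_closure ⟨a, mem_zpowers a, by rw [pow_one]⟩)

theorem mem_cent_zpowers {c g : G} :
    g ∈ centralizer ((zpowers c : Subgroup G) : Set G) ↔ g * c * g⁻¹ = c := by
  rw [mul_inv_eq_iff_eq_mul]
  constructor
  · exact fun h => (h c (mem_zpowers c)).symm
  · rintro h _ ⟨k, rfl⟩
    exact ((Commute.zpow_right h k).eq).symm

/-- The second alternative. -/
def Alt (p : ℕ) (U : Subgroup G) : Prop :=
  U.relIndex (centralizer (powerClosure p 1 U : Set G)) = p ∧
    IsElementaryAbelian p (omegaOne p (centralizer (powerClosure p 1 U : Set G))) ∧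
    Nat.card (omegaOne p (centralizer (powerClosure p 1 U : Set G))) = p ^ 2 ∧
    (omegaOne p (centralizer (powerClosure p 1 U : Set G))).Characteristic

theorem alt_odd [Finite G] {p : ℕ} [hp : Fact p.Prime] (hp2 : p ≠ 2) (hG : IsPGroup p G) {a : G}
    [hAn : (zpowers a).Normal] (hC : centralizer ((zpowers a : Subgroup G) : Set G) ≤ zpowers a)
    (htop : zpowers a ≠ ⊤) : Alt p (zpowers a) := by
  classical
  obtain ⟨n, hn⟩ := (IsPGroup.iff_orderOf.1 hG) a
  unfold Alt
  rw [powerClosure_zpowers]
  set M := centralizer ((zpowers (a ^ p) : Subgroup G) : Set G) with hM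
  have key : ∀ g : G, g ^ p ∈ zpowers a → g ∈ M := by
    intro g hg
    obtain ⟨k, hk⟩ := hAn.conj_mem a (mem_zpowers a) g
    simp only at hk
    have h1 : ∀ j : ℕ, g ^ j * a * (g ^ j)⁻¹ = a ^ (k ^ j) := by
      intro j
      induction j with
      | zero => simp
      | succ j ih =>
        have : g ^ (j + 1) * a * (g ^ (j + 1))⁻¹ = g * (g ^ j * a * (g ^ j)⁻¹) * g⁻¹ := by group
        rw [this, ih, ← conj_zpow, ← hk, ← zpow_mul, pow_succ']
    have h2 : a ^ (k ^ p) = a ^ (1 : ℤ) := by
      obtain ⟨s, hs⟩ := hg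
      simp only at hs
      rw [← h1, ← hs]; group
    rw [zpow_eq_zpow_iff_modEq, hn] at h2
    have h3 : (p : ℤ) ^ n ∣ k ^ p - 1 ^ p := by
      have := h2.symm.dvd
      simpa using this
    rw [hM, mem_cent_zpowers, ← conj_pow, ← hk, ← zpow_natCast, ← zpow_natCast, ← zpow_mul,
      zpow_eq_zpow_iff_modEq, hn]
    rcases Nat.eq_zero_or_pos n with rfl | h0
    · simp [Int.modEq_one]
    have h4 : (p : ℤ) ∣ k - 1 := by
      have h5 : (p : ℤ) ∣ k ^ p - 1 ^ p := (dvd_pow_self _ h0.ne').trans h3
      rw [← ZMod.intCast_zmod_eq_zero_iff_dvd] at h5 ⊢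
      push_cast at h5 ⊢
      rwa [ZMod.pow_card, one_pow] at h5
    have h5 : ¬ (p : ℤ) ∣ k := fun h => by
      have := dvd_sub h h4
      rw [sub_sub_cancel] at this
      exact hp.out.one_lt.ne' (by exact_mod_cast Int.eq_one_of_dvd_one (by positivity) this)
    have h6 := Int.emultiplicity_pow_sub_pow hp.out (hp.out.odd_of_ne_two hp2) h4 h5 p
    have h7 := pow_dvd_iff_le_emultiplicity.1 h3
    rw [h6, ← Int.natCast_emultiplicity, ← emultiplicity_mul (Nat.prime_iff_prime_int.1 hp.out)] at h7
    have h8 := pow_dvd_iff_le_emultiplicity.2 h7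
    refine (Int.modEq_iff_dvd.2 ?_).symm
    rw [show k * p - p = (k - 1) * (p : ℤ) by ring]
    exact_mod_cast h8
  have hUM : zpowers a ≤ M := zpowers_le.2 (by rw [hM, mem_cent_zpowers]; group)
  obtain ⟨y, hyM, hy⟩ : ∃ y ∈ M, y ∉ zpowers a := by
    obtain ⟨b, hb⟩ : ∃ b, b ∉ zpowers a := by
      by_contra hcon
      push Not at hcon
      exact htop (eq_top_iff.2 fun x _ => hcon x)
    obtain ⟨k, h1, h2⟩ := H1.exists_pow_notMem_pow_succ_mem hG hb
    exact ⟨_, key _ (by rwa [← pow_mul, ← pow_succ]), h1⟩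
  have hle : (zpowers a).relIndex M ≤ p := by
    haveI := Fintype.ofFinite (zpowers a)
    have h2 := IsCyclic.card_pow_eq_one_le (α := zpowers a) hp.out.pos
    rw [← Fintype.card_subtype, ← Nat.card_eq_fintype_card] at h2
    refine le_trans ?_ h2
    have hf : ∀ m : M, ∃ z : {x : zpowers a // x ^ p = 1},
        ((z : zpowers a) : G) = (m : G) * a * (m : G)⁻¹ * a⁻¹ := by
      intro m
      have h3 := hAn.conj_mem a (mem_zpowers a) m
      refine ⟨⟨⟨_, mul_mem h3 (inv_mem (mem_zpowers a))⟩, Subtype.ext ?_⟩, rfl⟩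
      have h4 : Commute ((m : G) * a * (m : G)⁻¹) a⁻¹ := by
        obtain ⟨k, hk⟩ := h3
        rw [← hk]; exact (Commute.self_zpow a k).symm.inv_right
      have h5 := mem_cent_zpowers.1 m.2
      simp only [SubmonoidClass.mk_pow, OneMemClass.coe_one]
      rw [h4.mul_pow, conj_pow, h5, inv_pow, mul_inv_cancel]
    choose f hf using hf
    refine Nat.card_le_card_of_injective (fun q => f q.out) fun q q' h => ?_
    have h3 := (hf q.out).symm.trans ((congrArg (fun z : {x : zpowers a // x ^ p = 1} => ((z : zpowers a) : G)) h).trans (hf q'.out))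
    rw [← q.out_eq', ← q'.out_eq', QuotientGroup.eq, mem_subgroupOf]
    apply hC
    rw [mem_cent_zpowers]
    simp only [coe_mul, InvMemClass.coe_inv]
    rw [mul_left_inj] at h3
    calc _ = (q.out : G)⁻¹ * ((q'.out : G) * a * (q'.out : G)⁻¹) * (q.out : G) := by group
      _ = a := by rw [← h3]; group
  have hidx : (zpowers a).relIndex M = p := by
    obtain ⟨k, hk⟩ := (hG.to_subgroup M).index ((zpowers a).subgroupOf M)
    have h1 : (zpowers a).relIndex M ≠ 1 := fun h => hy (relIndex_eq_one.1 h hyM)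
    rw [relIndex, hk] at hle h1 ⊢
    have h2 : k ≤ 1 := (Nat.pow_le_pow_iff_right hp.out.one_lt).1 (by rwa [pow_one])
    have h3 : k ≠ 0 := by rintro rfl; simp at h1
    rw [show k = 1 by omega, pow_one]
  have hnc : ¬ IsCyclic M := by
    intro h
    apply hy
    apply hC
    intro u hu
    have := h.isMulCommutative.is_comm.comm (⟨u, hUM hu⟩ : M) ⟨y, hyM⟩
    exact congrArg Subtype.val this
  obtain ⟨h1, h2⟩ := S0127.result hp2 (hG.to_subgroup M) hnc ((zpowers a).subgroupOf M)
    (isCyclic_of_surjective _ (subgroupOfEquivOfLe hUM).symm.surjective) hidx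
  have he : omegaOne p M = (closure {x : M | x ^ p = 1}).map M.subtype := by
    rw [omegaOne, MonoidHom.map_closure]
    congr 1
    ext x
    constructor
    · rintro ⟨a, b⟩; exact ⟨⟨x, a⟩, Subtype.ext b, rfl⟩
    · rintro ⟨y, hy, rfl⟩; exact ⟨y.2, by simpa using congrArg Subtype.val hy⟩
  refine ⟨hidx, ?_, ?_, omegaOne_char_of fun g hg => key g (hg ▸ one_mem _)⟩
  · rw [he]
    refine ⟨?_, ?_⟩
    · haveI := h1.1
      infer_instance
    · rintro _ ⟨x, hx, rfl⟩
      simpa using congrArg Subtype.val (h1.2 x hx)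
  · rw [he, card_map_of_injective M.subtype_injective, h2]

theorem alt_two [Finite G] (hG : IsPGroup 2 G) {a : G} {n : ℕ} (hn : orderOf a = 2 ^ n)
    [hAn : (zpowers a).Normal] (hC : centralizer ((zpowers a : Subgroup G) : Set G) ≤ zpowers a)
    (htop : zpowers a ≠ ⊤) :
    (∃ e f X Y, MC (⊤ : Subgroup G) n e f X Y) ∨ Alt 2 (zpowers a) := by
  have hA : ∀ x ∈ zpowers a, ∀ y ∈ zpowers a, x * y = y * x := by
    rintro _ ⟨i, rfl⟩ _ ⟨j, rfl⟩
    exact zpow_mul_comm a i j
  have ha1 : a ^ 2 ^ n = 1 := by rw [← hn, pow_orderOf_eq_one]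
  let X : ZMod (2 ^ n) → G := fun k => a ^ k.val
  have hXX : ∀ i j, X i * X j = X (i + j) := fun i j => (pow_val_add ha1 i j).symm
  have hinj : ∀ {i j}, X i = X j → i = j := fun h => pow_val_injective hn h
  have hX0 : X 0 = 1 := by simp [X]
  have hX1 : X 1 = a := by
    have := pow_val_natCast (n := 2 ^ n) ha1 1
    simpa using this
  have hmem : ∀ g, g ∈ Subgroup.zpowers a ↔ ∃ k, g = X k := by
    intro g
    constructor
    · rintro ⟨k, rfl⟩
      exact ⟨k, (pow_val_intCast ha1 k).symm⟩
    · rintro ⟨k, rfl⟩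
      exact Subgroup.npow_mem_zpowers _ _
  have hmul : ∀ i j : ZMod (2 ^ n), X i ^ j.val = X (i * j) := fun i j => by
    simp only [X]
    rw [ZMod.val_mul, ← pow_mul, ← pow_eq_pow_mod _ ha1]
  choose r hr using fun g : G => (hmem _).1 (hAn.conj_mem a (Subgroup.mem_zpowers a) g)
  have hrX : ∀ g k, g * X k * g⁻¹ = X (r g * k) := fun g k => by
    rw [← hmul, ← hr, conj_pow]
  have hrmul : ∀ g k, r (g * k) = r g * r k := fun g k => hinj (by
    rw [← hr, ← hrX, ← hr]; group)
  have hr1 : ∀ g, r g = 1 ↔ g ∈ Subgroup.zpowers a := by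
    intro g
    constructor
    · intro h1
      apply hC
      have := hr g
      rw [h1, hX1, mul_inv_eq_iff_eq_mul] at this
      rintro _ ⟨k, rfl⟩
      exact ((Commute.zpow_right this k).eq).symm
    · intro h1
      apply hinj
      rw [← hr, hX1, hA g h1 a (Subgroup.mem_zpowers a), mul_inv_cancel_right]
  have hrinv : ∀ g, r g⁻¹ * r g = 1 := fun g => by
    rw [← hrmul, inv_mul_cancel]; exact (hr1 1).2 (Subgroup.one_mem _)
  by_cases hM : 3 ≤ n → ∀ g, r g ≠ 1 + hh n
  swap
  · push Not at hM
    obtain ⟨h3, g, hg⟩ := hM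
    right
    have h2h := two_hh (n := n) (by omega)
    have h2q := two_qq (n := n) (by omega)
    have h8 : 2 * fr n 3 = qq n := two_mul_fr h3
    have hgg : g * g ∈ Subgroup.zpowers a := (hr1 _).1 (by
      rw [hrmul, hg]; linear_combination (1 + qq n) * h2h - hh n * h2q)
    obtain ⟨s, hs⟩ := (hmem _).1 hgg
    have hs1 : hh n * s = 0 := by
      have : X (r g * s) = X s := by rw [← hrX, ← hs]; group
      have := hinj this
      rw [hg] at this
      linear_combination this
    obtain ⟨s', hs' | hs'⟩ := zparity s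
    swap
    · rw [hs'] at hs1
      exact absurd (by linear_combination hs1 - s' * h2h) (hh_ne (n := n) (by omega))
    obtain ⟨u, hu⟩ := zodd_unit (fr n 3)
    have hsq : ∀ i, (X i * g) * (X i * g) = X (i + (1 + hh n) * i + s) := fun i => by
      rw [← hXX, ← hXX, ← hg, ← hrX, ← hs]; group
    set b := X (-(u * s')) * g with hb
    have hbb : b * b = 1 := by
      rw [hb, hsq, ← hX0]; congr 1
      rw [hs']
      linear_combination (-2 * s') * hu + (u * s') * h2q + (2 * u * s') * h8
    have hrb : r b = 1 + hh n := by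
      rw [hb, hrmul, (hr1 _).2 ((hmem _).2 ⟨_, rfl⟩), one_mul, hg]
    have hbA : b ∉ Subgroup.zpowers a := fun h => by
      have := (hr1 b).2 h
      rw [hrb] at this
      exact hh_ne (n := n) (by omega) (by linear_combination this)
    have hz : orderOf (X (hh n)) = 2 := orderOf_two_of
      (fun h => hh_ne (n := n) (by omega) (hinj (h.trans hX0.symm)))
      (by rw [hXX, ← hX0]; congr 1; linear_combination h2h)
    have hzc : ∀ g, g * X (hh n) * g⁻¹ = X (hh n) := fun g =>
      invol_unique_zpowers (a := a) (by rw [orderOf_conj, hz]) hz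
        (hAn.conj_mem _ ((hmem _).2 ⟨_, rfl⟩) g) ((hmem _).2 ⟨_, rfl⟩)
    have hbo : orderOf b = 2 := orderOf_two_of (fun h => hbA (h ▸ Subgroup.one_mem _)) hbb
    have hzb : X (hh n) * b = b * X (hh n) := (mul_inv_eq_iff_eq_mul.1 (hzc b)).symm
    have hV := isKleinFour_closure hz hbo (fun h => hbA (h ▸ (hmem _).2 ⟨_, rfl⟩)) hzb
    have hX2 : a ^ 2 = X 2 := by rw [pow_two, ← hX1, hXX]; congr 1; norm_num
    have hXz : ∀ i j, X (i * j) ∈ zpowers (X i) := fun i j => by
      rw [← hmul]; exact npow_mem_zpowers _ _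
    have mM : ∀ g, g ∈ centralizer ((zpowers (a ^ 2) : Subgroup G) : Set G) ↔
        r g = 1 ∨ r g = 1 + hh n := by
      intro g
      rw [mem_cent_zpowers, hX2, hrX]
      constructor
      · intro h
        have h1 := hinj h
        rcases two_mul_eq_zero (n := n) (by omega) (a := r g - 1) (by linear_combination h1) with h | h
        · left; linear_combination h
        · right; linear_combination h
      · rintro (h | h) <;> rw [h] <;> congr 1
        · ring
        · linear_combination h2h
    have hchar : (omegaOne 2 (centralizer (powerClosure 2 1 (zpowers a) : Set G))).Characteristic := by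
      by_cases hall : ∀ g : G, g ^ 2 = 1 → g ∈ centralizer (powerClosure 2 1 (zpowers a) : Set G)
      · exact omegaOne_char_of hall
      push Not at hall
      obtain ⟨c, hc1, hc2⟩ := hall
      rw [powerClosure_zpowers, mM, not_or] at hc2
      obtain ⟨d, hd⟩ : ∃ d, r d = -1 := by
        have h1 : r c * r c = 1 := by
          rw [← hrmul, ← pow_two, hc1]; exact (hr1 1).2 (one_mem _)
        rcases zsq_eq_one (by omega) h1 with h | h | h | h
        · exact absurd h hc2.1
        · exact ⟨c, h⟩
        · exact absurd h hc2.2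
        · exact ⟨c * b, by rw [hrmul, h, hrb]; linear_combination qq n * h2h - hh n * h2q⟩
      have h1 : X 2 ∈ commutator G := by
        have : X 2 = ⁅a, d⁆ := by
          have h2 : ⁅a, d⁆ = a * (d * a * d⁻¹)⁻¹ := by group
          rw [h2, hr, hd, eq_mul_inv_iff_mul_eq, hXX, ← hX1]; congr 1; ring
        rw [this]; exact commutator_mem_commutator trivial trivial
      have h2 : commutator G ≤ zpowers a := by
        rw [_root_.commutator_def, commutator_le]
        intro x _ y _
        rw [← hr1, commutatorElement_def, hrmul, hrmul, hrmul]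
        linear_combination (r y⁻¹ * r y) * hrinv x + hrinv y
      by_cases h4 : commutator G ≤ zpowers (X 2)
      · have h5 : powerClosure 2 1 (zpowers a) = commutator G := by
          rw [powerClosure_zpowers, hX2]; exact le_antisymm (zpowers_le.2 h1) h4
        rw [h5]; infer_instance
      · obtain ⟨x, hx, hx2⟩ := SetLike.not_le_iff_exists.1 h4
        obtain ⟨i, rfl⟩ := (hmem x).1 (h2 hx)
        obtain ⟨j, rfl | rfl⟩ := zparity i
        · exact absurd (hXz 2 j) hx2
        obtain ⟨v, hv⟩ := zodd_unit j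
        have h5 : zpowers a = commutator G := by
          refine le_antisymm (zpowers_le.2 ?_) h2
          have := hXz (2 * j + 1) v
          rw [mul_comm _ v, hv, hX1] at this
          exact zpowers_le.2 hx this
        haveI : (zpowers a).Characteristic := by rw [h5]; infer_instance
        infer_instance
    have hdec : ∀ c, r c = 1 + hh n → c * b ∈ zpowers a := fun c hc => (hr1 _).1 (by
      rw [hrmul, hc, hrb]; linear_combination (1 + qq n) * h2h - hh n * h2q)
    have he : omegaOne 2 (centralizer ((zpowers (a ^ 2) : Subgroup G) : Set G)) =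
        closure {X (hh n), b} := by
      apply le_antisymm
      · rw [omegaOne, closure_le]
        rintro x ⟨hx, hx2⟩
        rw [SetLike.mem_coe, mem_four_iff (mul_self_of_orderOf_two hz) hbb hzb]
        rw [pow_two] at hx2
        rcases (mM x).1 hx with h | h
        · obtain ⟨i, rfl⟩ := (hmem x).1 ((hr1 x).1 h)
          rw [hXX, ← hX0] at hx2
          rcases two_mul_eq_zero (n := n) (by omega) (a := i)
            (by linear_combination hinj hx2) with h6 | h6
          · rw [h6, hX0]; tauto
          · rw [h6]; tauto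
        · obtain ⟨i, hi⟩ := (hmem _).1 (hdec x h)
          have h2 : x = X i * b := by rw [← hi, mul_assoc, hbb, mul_one]
          have h4 : X (i + (1 + hh n) * i) = X 0 := by
            rw [← hXX, ← hrb, ← hrX, hX0, ← hx2, h2, inv_eq_of_mul_eq_one_right hbb]; group
          have h5 : 2 * i = 0 := by
            have := hinj h4
            linear_combination u * this - 2 * i * hu + u * i * h2q + 2 * u * i * h8
          rw [h2]
          rcases two_mul_eq_zero (by omega) h5 with h6 | h6
          · rw [h6, hX0, one_mul]; tauto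
          · rw [h6]; tauto
      · rw [closure_le]
        rintro _ (rfl | rfl)
        · exact subset_closure ⟨(mM _).2 (Or.inl ((hr1 _).2 ((hmem _).2 ⟨_, rfl⟩))), by
            rw [pow_two, mul_self_of_orderOf_two hz]⟩
        · exact subset_closure ⟨(mM _).2 (Or.inr hrb), by rw [pow_two, hbb]⟩
    refine ⟨?_, ?_, ?_, hchar⟩ <;> rw [powerClosure_zpowers]
    · refine relIndex_eq_two_of (a := b) ((mM b).2 (Or.inr hrb)) hbA fun c hc => ?_
      rcases (mM c).1 hc with h | h
      · exact Or.inl ((hr1 c).1 h)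
      · exact Or.inr (hdec c h)
    · rw [he]
      refine ⟨IsKleinFour.isMulCommutative, fun v hv => ?_⟩
      have := IsKleinFour.mul_self (⟨v, hv⟩ : closure {X (hh n), b})
      rw [pow_two]; exact congrArg Subtype.val this
    · rw [he, hV.card_four]; rfl
  have hE : ∀ g, g * g ∈ Subgroup.zpowers a := by
    intro g
    by_contra hg
    obtain ⟨k, hk1, hk2⟩ := H1.exists_pow_notMem_pow_succ_mem hG hg
    set c := g ^ 2 ^ k with hc
    have e1 : (g * g) ^ 2 ^ k = c * c := by rw [hc, ← pow_two, ← pow_mul, ← pow_two, ← pow_mul, mul_comm]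
    have e2 : (g * g) ^ 2 ^ (k + 1) = (c * c) * (c * c) := by rw [pow_succ, pow_mul, e1, pow_two]
    rw [e1, ← hr1] at hk1
    rw [e2, ← hr1, hrmul] at hk2
    rcases Nat.eq_zero_or_pos n with h0 | h0
    · subst h0; exact hk1 (Subsingleton.elim (α := ZMod 1) _ _)
    obtain ⟨b, hb | hb⟩ := zparity (r c)
    · have := hrinv c
      rw [hb] at this
      exact zodd_ne h0 (r c⁻¹ * b) 0 (by linear_combination this)
    have hs : r (c * c) = 1 + 4 * (b * (b + 1)) := by rw [hrmul, hb]; ring
    have h3 : 3 ≤ n := by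
      by_contra h3
      apply hk1
      have : (4 : ZMod (2 ^ n)) = 0 := by
        have h4 : ((4 : ℕ) : ZMod (2 ^ n)) = 0 := by
          rw [ZMod.natCast_eq_zero_iff]
          exact (pow_dvd_pow 2 (by omega : n ≤ 2))
        exact_mod_cast h4
      rw [hs, this]; ring
    have h2q := two_qq (n := n) (by omega)
    have h8 : 2 * fr n 3 = qq n := two_mul_fr h3
    rcases zsq_eq_one h0 hk2 with h1 | h1 | h1 | h1
    · exact hk1 h1
    · exact two_mul_odd_ne (n := n) (by omega) (b * (b + 1)) (by rw [hs] at h1; linear_combination h1)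
    · exact hM h3 _ h1
    · exact two_mul_odd_ne (n := n) (by omega) (b * (b + 1) - fr n 3)
        (by rw [hs] at h1; linear_combination h1 - h2q - 2 * h8)
  left
  obtain ⟨b, hb⟩ : ∃ b, b ∉ Subgroup.zpowers a := by
    by_contra hcon
    push Not at hcon
    exact htop (eq_top_iff.2 fun x _ => hcon x)
  have hn2 : 2 ≤ n := by
    by_contra hlt
    apply hb
    rw [← hr1]
    have := hrinv b
    have hn' : n = 0 ∨ n = 1 := by omega
    rcases hn' with rfl | rfl
    · exact Subsingleton.elim (α := ZMod 1) _ _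
    · revert this
      generalize r b⁻¹ = u
      generalize r b = v
      revert u v
      decide
  have h2h := two_hh (n := n) (by omega)
  have h2q := two_qq (n := n) hn2
  have hcases : ∀ g, g ∉ Subgroup.zpowers a → ∃ e, (e = 0 ∨ (3 ≤ n ∧ e = hh n)) ∧ r g = -1 + e := by
    intro g hg
    have h1 := (hr1 _).2 (hE g)
    rw [hrmul] at h1
    rcases (by omega : n = 2 ∨ 3 ≤ n) with h2 | h3
    · subst h2
      refine ⟨0, Or.inl rfl, ?_⟩
      rw [← hr1] at hg
      revert h1 hg
      generalize r g = u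
      revert u
      decide
    · rcases zsq_eq_one (by omega) h1 with h2 | h2 | h2 | h2
      · exact absurd ((hr1 g).1 h2) hg
      · exact ⟨0, Or.inl rfl, by rw [h2, add_zero]⟩
      · exact absurd h2 (hM h3 g)
      · exact ⟨hh n, Or.inr ⟨h3, rfl⟩, h2⟩
  obtain ⟨e, he, hre⟩ := hcases b hb
  have hidx : (Subgroup.zpowers a).index = 2 := by
    rw [← Subgroup.relIndex_top_right]
    refine relIndex_eq_two_of (a := b) trivial hb fun c _ => ?_
    by_cases hc : c ∈ Subgroup.zpowers a
    · exact Or.inl hc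
    right
    obtain ⟨e', he', hre'⟩ := hcases c hc
    rw [← hr1]
    by_contra hne
    have hm := hrmul c b
    rw [hre, hre'] at hm
    rcases he with rfl | ⟨h3, rfl⟩ <;> rcases he' with rfl | ⟨h3', rfl⟩
    · exact hne (by rw [hm]; ring)
    · exact hM h3' _ (by rw [hm]; linear_combination (-1) * h2h)
    · exact hM h3 _ (by rw [hm]; linear_combination (-1) * h2h)
    · exact hne (by rw [hm]; linear_combination (qq n - 1) * h2h - hh n * h2q)
  obtain ⟨f, hf⟩ := (hmem _).1 (hE b)
  have hf1 : 2 * f = 0 := by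
    have : X (r b * f) = X f := by rw [← hrX, ← hf]; group
    have h1 := hinj this
    rw [hre] at h1
    rcases he with rfl | ⟨h3, rfl⟩
    · linear_combination -h1
    · have h8 : 2 * fr n 3 = qq n := two_mul_fr h3
      obtain ⟨u, hu⟩ := zodd_unit (-fr n 3)
      linear_combination (-u) * h1 - 2 * f * hu - u * f * h2q - 2 * u * f * h8
  refine ⟨e, f, _, _, MC.of_gens hn2 hn he (two_mul_eq_zero (by omega) hf1) (y := b)
    (by rw [hr, hre]) hf hb trivial trivial ?_⟩
  rw [Subgroup.card_top, ← (Subgroup.zpowers a).card_mul_index, hidx, Nat.card_zpowers, hn, pow_succ]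


theorem selfcent [Finite G] {p : ℕ} [hp : Fact p.Prime] (hG : IsPGroup p G)
    (hna : ¬ IsMulCommutative G) (U : Subgroup G) [U.Normal] (hU : IsCyclic U) (n : ℕ)
    (hUn : Nat.card U = p ^ n) (hC : centralizer (U : Set G) = U) :
    (p = 2 ∧ Nat.card G = 2 ^ (n + 1) ∧ ((∃ m : ℕ, Nonempty (G ≃* DihedralGroup m)) ∨
      (∃ m : ℕ, Nonempty (G ≃* QuaternionGroup m)) ∨ IsQuasiDihedral G)) ∨ Alt p U := by
  obtain ⟨a, rfl⟩ := (Subgroup.isCyclic_iff_exists_zpowers_eq_top U).1 hU
  have htop : zpowers a ≠ ⊤ := fun h =>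
    hna (isCyclic_iff_exists_zpowers_eq_top.2 ⟨a, h⟩).isMulCommutative
  by_cases hp2 : p = 2
  · subst hp2
    rcases alt_two hG (by rwa [Nat.card_zpowers] at hUn) hC.le htop with ⟨e, f, X, Y, h⟩ | h
    · exact Or.inl ⟨rfl, by rw [← h.card, card_top], mc_cases h⟩
    · exact Or.inr h
  · exact Or.inr (alt_odd hp2 hG hC.le htop)

end Cfsg.Agent.H22.Sp
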