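import Cfsg.Prelude.Def_CaseTheorems
import Cfsg.Agent.H11.Invol

/-! Counting tools for 2-groups of sectional rank at most 4; recognition of `Q₈ ∘ D₈`. -/

set_option autoImplicit false
set_option linter.style.haveILetI false

namespace Cfsg.Agent.H22.Sr
open Subgroup

variable {G : Type*} [Group G]

theorem fixmod {M α : Type*} [Group M] [MulAction M α] [Finite α] {r : ℕ} (hr : r.Prime) {g : M}
    (hg : g ^ r = 1) (T : Set α) (hT : ∀ t ∈ T, g • t ∈ T) :
    T.ncard ≡ {t | t ∈ T ∧ g • t = t}.ncard [MOD r] := by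
  classical
  haveI := Fact.mk hr
  haveI := Fintype.ofFinite T
  let f : Function.End T := fun x => ⟨g • x.1, hT _ x.2⟩
  have hf : ∀ (k : ℕ) (x : T), ((f ^ k) x).1 = g ^ k • x.1 := fun k => by
    induction k with
    | zero => intro x; simp; rfl
    | succ k ih => intro x; rw [pow_succ, pow_succ, mul_smul]; exact ih (f x)
  have := Equiv.Perm.card_fixedPoints_modEq (f := f) (p := r) (n := 1) (by
    funext x; exact Subtype.ext (by rw [hf, pow_one, hg, one_smul]; rfl))
  rw [← Nat.card_eq_fintype_card, ← Nat.card_eq_fintype_card] at this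
  refine this.trans (by
    rw [← Nat.card_coe_set_eq]
    exact (congrArg (· % r) (Nat.card_congr ⟨fun x => ⟨x.1.1, x.1.2, congrArg Subtype.val x.2⟩,
      fun x => ⟨⟨x.1, x.2.1⟩, Subtype.ext x.2.2⟩, fun _ => rfl, fun _ => rfl⟩)))

theorem fixc [Finite G] {r : ℕ} (hr : r.Prime) {g : G} (hg : g ^ r = 1) (T : Set G)
    (hT : ∀ t ∈ T, g * t * g⁻¹ ∈ T) : T.ncard ≡ {t | t ∈ T ∧ g * t * g⁻¹ = t}.ncard [MOD r] :=
  fixmod (g := MulAut.conj g) hr (by rw [← map_pow, hg, map_one]) T hT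

theorem fixs [Finite G] {r : ℕ} (hr : r.Prime) {g : G} (hg : g ^ r = 1) (A : Subgroup G)
    (hT : ∀ t ∈ A, g * t * g⁻¹ ∈ A) :
    Nat.card A ≡ Nat.card (A ⊓ centralizer {g} : Subgroup G) [MOD r] := by
  have := fixc hr hg (A : Set G) hT
  rwa [show {t | t ∈ (A : Set G) ∧ g * t * g⁻¹ = t} = (A ⊓ centralizer {g} : Subgroup G) by
    ext t; simp only [Set.mem_ofPred_eq, SetLike.mem_coe, mem_inf, mem_centralizer_singleton_iff,
      mul_inv_eq_iff_eq_mul]; exact and_congr_right fun _ => eq_comm] at this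

theorem dvd_ncard (S : Subgroup G) (T : Set G) (h : ∀ t ∈ T, ∀ s ∈ S, t * s ∈ T) :
    Nat.card S ∣ T.ncard := by
  have : T = QuotientGroup.mk ⁻¹' ((QuotientGroup.mk : G → G ⧸ S) '' T) := by
    ext x
    refine ⟨fun hx => ⟨x, hx, rfl⟩, fun ⟨t, ht, e⟩ => ?_⟩
    simpa using h t ht _ (QuotientGroup.eq.1 e)
  rw [this, ← Nat.card_coe_set_eq, QuotientGroup.card_preimage_mk]
  exact Dvd.intro _ rfl

theorem card_comap (M : Subgroup G) [M.Normal] (H : Subgroup (G ⧸ M)) :
    Nat.card (H.comap (QuotientGroup.mk' M)) = Nat.card M * Nat.card H :=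
  QuotientGroup.card_preimage_mk M (H : Set (G ⧸ M))

theorem ncard3 {α : Type*} [Finite α] {A B C T : Set α} (h1 : Disjoint A B) (h2 : Disjoint A C)
    (h3 : Disjoint B C) (a : A ⊆ T) (b : B ⊆ T) (c : C ⊆ T) :
    A.ncard + B.ncard + C.ncard ≤ T.ncard := by
  rw [← Set.ncard_union_eq h1, ← Set.ncard_union_eq (Set.disjoint_union_left.2 ⟨h2, h3⟩)]
  exact Set.ncard_le_ncard (Set.union_subset (Set.union_subset a b) c)

/-- Elementary abelian sections have order at most 16. -/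
def SR (G : Type*) [Group G] : Prop := ∀ H N : Subgroup G, N ≤ H →
  (∀ h ∈ H, ∀ n ∈ N, h * n * h⁻¹ ∈ N) → (∀ h ∈ H, h ^ 2 ∈ N) → Nat.card H ≤ 16 * Nat.card N

theorem comm_of_sq {a b : G} (ha : a ^ 2 = 1) (hb : b ^ 2 = 1) (hab : (a * b) ^ 2 = 1) :
    a * b = b * a := by
  calc a * b = a * (a * b) ^ 2 * b := by rw [hab, mul_one]
    _ = a ^ 2 * (b * a) * b ^ 2 := by simp only [sq, mul_assoc]
    _ = b * a := by rw [ha, hb, one_mul, mul_one]

theorem SR.of (h : SectionalPRankLE 2 4 G) : SR G := fun H N hl hn hs => by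
  haveI : (N.subgroupOf H).Normal := ⟨fun n a g => hn g g.2 n a⟩
  have e : ∀ x : H ⧸ N.subgroupOf H, x ^ 2 = 1 := fun x => by
    obtain ⟨y, rfl⟩ := QuotientGroup.mk_surjective x
    rw [← QuotientGroup.mk_pow, QuotientGroup.eq_one_iff]
    exact hs y y.2
  have := h H (N.subgroupOf H) ⊤ ⟨⟨fun a b => Subtype.ext (comm_of_sq (e _) (e _) (e _))⟩⟩
    fun a _ => e a
  rw [card_top] at this
  rw [card_eq_card_quotient_mul_card_subgroup (N.subgroupOf H),
    Nat.card_congr (subgroupOfEquivOfLe hl).toEquiv]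
  exact Nat.mul_le_mul_right _ this

theorem SR.sub (h : SR G) (Y : Subgroup G) : SR Y := fun H N hl hn hs => by
  have := h (H.map Y.subtype) (N.map Y.subtype) (map_mono hl) (by
    rintro _ ⟨a, ha, rfl⟩ _ ⟨b, hb, rfl⟩; exact ⟨_, hn a ha b hb, rfl⟩) (by
    rintro _ ⟨a, ha, rfl⟩; exact ⟨_, hs a ha, rfl⟩)
  rwa [card_map_of_injective Y.subtype_injective, card_map_of_injective Y.subtype_injective] at this

theorem SR.quot [Finite G] (h : SR G) (M : Subgroup G) [M.Normal] : SR (G ⧸ M) := fun H N hl hn hs => by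
  have := h (H.comap (QuotientGroup.mk' M)) (N.comap (QuotientGroup.mk' M)) (comap_mono hl)
    (fun a ha b hb => by simpa using hn _ ha _ hb) (fun a ha => by simpa using hs _ ha)
  rw [card_comap, card_comap, mul_left_comm] at this
  exact Nat.le_of_mul_le_mul_left this Nat.card_pos

theorem cle [Finite G] {P S : Subgroup G} (hS : S ≤ center G) {p : G}
    (h : ∀ g ∈ P, g * p * g⁻¹ * p⁻¹ ∈ S) :
    Nat.card P ≤ Nat.card S * Nat.card (P ⊓ centralizer {p} : Subgroup G) := by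
  let f : P →* S := MonoidHom.mk' (fun g => ⟨_, h g g.2⟩) fun a b => Subtype.ext (by
    have := mem_center_iff.1 (hS (h b b.2))
    simp only [coe_mul, mul_inv_rev]
    rw [this]
    calc _ = (a : G) * ((b * p * (b : G)⁻¹ * p⁻¹) * (p * (a : G)⁻¹ * p⁻¹)) := by group
      _ = _ := by rw [← mul_assoc, this a]; group)
  have e : f.ker = (P ⊓ centralizer {p}).subgroupOf P := by
    ext g
    simp only [MonoidHom.mem_ker, mem_subgroupOf, mem_inf, mem_centralizer_singleton_iff, g.2,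
      true_and, Subtype.ext_iff, f]
    simp [mul_inv_eq_iff_eq_mul]
  rw [← f.ker.card_mul_index, e, Nat.card_congr (subgroupOfEquivOfLe inf_le_left).toEquiv, ← e,
    index_ker, mul_comm]
  exact Nat.mul_le_mul_right _ (card_le_card_group _)

theorem exq [Finite G] {P S : Subgroup G} (hS : S ≤ center G) {p : G}
    (h : ∀ g ∈ P, g * p * g⁻¹ * p⁻¹ ∈ S) (hc : 2 * Nat.card S * Nat.card S < Nat.card P) :
    ∃ q ∈ P, q * p = p * q ∧ q ∉ S ∧ p * q ∉ S := by
  have a := cle hS h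
  have b : ((S : Set G) ∪ (fun s => p⁻¹ * s) '' S).ncard <
      ((P ⊓ centralizer {p} : Subgroup G) : Set G).ncard := by
    refine (Set.ncard_union_le _ _).trans_lt ?_
    rw [Set.ncard_image_of_injective _ (mul_right_injective _)]
    change Nat.card S + Nat.card S < Nat.card (P ⊓ centralizer {p} : Subgroup G)
    by_contra c
    have := Nat.mul_le_mul_left (Nat.card S) (not_lt.1 c)
    nlinarith
  obtain ⟨q, h1, h2⟩ := Set.exists_mem_notMem_of_ncard_lt_ncard b
  exact ⟨q, h1.1, mem_centralizer_singleton_iff.1 h1.2, fun c => h2 (.inl c),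
    fun c => h2 (.inr ⟨_, c, by simp⟩)⟩

theorem comm_eq (a b : G) : a * b * a⁻¹ * b⁻¹ = (a * b) ^ 2 * (b⁻¹ * a⁻¹ * b) ^ 2 * b⁻¹ ^ 2 := by
  simp only [sq]; group

theorem rec32 {E : Type*} [Group E] [Finite E] (hE : Nat.card E = 32) {z : E} (z1 : z ≠ 1)
    (zc : z ∈ center E) (hs : ∀ e : E, e ^ 2 = 1 ∨ e ^ 2 = z) (hz : ∃ e : E, e ^ 2 = z)
    (ω : MulAut E) (h5 : ω ^ 5 = 1) (hf : ∀ e, ω e = e → e = 1 ∨ e = z) :
    ∃ A B : Subgroup E, Nonempty (A ≃* QuaternionGroup 2) ∧ Nonempty (B ≃* DihedralGroup 4) ∧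
      (∀ a ∈ A, ∀ b ∈ B, a * b = b * a) ∧ A ⊔ B = ⊤ ∧ A ⊓ B = center E := by
  classical
  have zz : z * z = 1 := by
    rcases hs z with a | a
    · rwa [← sq]
    · exact absurd (by simpa [sq] using a) z1
  have zm : ∀ g, z * g = g * z := fun g => (mem_center_iff.1 zc g).symm
  have zo : orderOf z = 2 := H11.orderOf_two_of z1 zz
  have mz : ∀ g, g ∈ zpowers z ↔ g = 1 ∨ g = z := fun g => by
    rw [mem_zpowers_iff_mem_range_orderOf, zo]
    simp [Finset.range_add_one, eq_comm, or_comm]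
  have cm : ∀ a b : E, a * b = b * a ∨ a * b = z * (b * a) := fun a b => by
    have m : ∀ e : E, e ^ 2 ∈ zpowers z := fun e => (mz _).2 (hs e)
    have := (mz _).1 (comm_eq a b ▸ mul_mem (mul_mem (m _) (m _)) (m _))
    rwa [mul_inv_eq_one, mul_inv_eq_iff_eq_mul, mul_inv_eq_iff_eq_mul, mul_inv_eq_iff_eq_mul,
      mul_assoc] at this
  have wz : ω z = z := by
    obtain ⟨e, rfl⟩ := hz
    rw [map_pow]
    exact (hs _).resolve_left fun a => z1 (ω.injective (by rw [map_pow, a, map_one]))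
  have md : ∀ T : Set E, (∀ t ∈ T, ω t ∈ T) → 1 ∈ T → z ∈ T → T.ncard % 5 = 2 := fun T h a b => by
    have := fixmod Nat.prime_five h5 T h
    rwa [show {t | t ∈ T ∧ ω • t = t} = {1, z} from Set.ext fun t => ⟨fun c => hf t c.2, by
      rintro (rfl | rfl); exacts [⟨a, map_one ω⟩, ⟨b, wz⟩]⟩, Set.ncard_pair z1.symm] at this
  obtain ⟨t, t2, t1⟩ : ∃ t : E, t ^ 2 = 1 ∧ t ∉ zpowers z := by
    by_contra hn
    push Not at hn
    have hc : Nat.card (zpowers z) = 2 := by rw [Nat.card_zpowers, zo]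
    obtain ⟨p, hp⟩ : ∃ p, p ∉ zpowers z := by
      by_contra h
      push Not at h
      rw [(eq_top_iff' _).2 h, card_top, hE] at hc
      omega
    obtain ⟨q, -, h1, h2, h3⟩ := exq (P := ⊤) (zpowers_le.2 zc) (p := p) (fun g _ => (mz _).2 (by
      rcases cm g p with a | a <;> rw [a] <;> simp [mul_assoc])) (by rw [hc, card_top, hE]; norm_num)
    refine h3 (hn _ ?_)
    rw [Commute.mul_pow h1.symm, (hs p).resolve_left fun a => hp (hn p a),
      (hs q).resolve_left fun a => h2 (hn q a), zz]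
  have I5 := md {e | e ^ 2 = 1} (fun t a => by rw [Set.mem_ofPred_eq, ← map_pow, a, map_one])
    (by simp) (by simpa [sq] using zz)
  have two : ∀ K : Subgroup E, Nat.card K % 5 = 2 → Nat.card K = 2 ∨ K = ⊤ := fun K hK => by
    have a : Nat.card K ∣ 2 ^ 5 := (card_subgroup_dvd_card K).trans (hE.dvd)
    obtain ⟨k, b, c⟩ := (Nat.dvd_prime_pow Nat.prime_two).1 a
    rw [← card_eq_iff_eq_top, hE]
    rw [c] at hK ⊢
    interval_cases k <;> simp_all
  have pair : ∀ K : Set E, K.ncard = 2 → 1 ∈ K → z ∈ K → ∀ g ∈ K, g ∈ zpowers z := fun K h a b g hg => by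
    rw [← Set.eq_of_subset_of_ncard_le (s := {1, z}) (Set.pair_subset a b)
      (by rw [h, Set.ncard_pair z1.symm])] at hg
    exact (mz g).2 hg
  have Z : ∀ g ∈ center E, g ∈ zpowers z := by
    rcases two (center E) (md _ (fun t a => mem_center_iff.2 fun g => by
      simpa using congrArg ω (mem_center_iff.1 a (ω.symm g))) (one_mem _) zc) with a | a
    · exact pair _ a (one_mem _) zc
    · exfalso
      have c : ∀ u v : E, Commute u v := fun u v => (mem_center_iff.1 (a ▸ mem_top v) u)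
      let K : Subgroup E := ⟨⟨⟨{e | e ^ 2 = 1}, fun {u v} hu hv => by
        rw [Set.mem_ofPred_eq, (c u v).mul_pow, hu, hv, one_mul]⟩, by simp⟩,
        fun {u} hu => by rw [Set.mem_ofPred_eq, inv_pow, hu, inv_one]⟩
      rcases two K I5 with b | b
      · exact t1 (pair _ b (by simp [K]) (by simpa [K, sq] using zz) t t2)
      · obtain ⟨e, he⟩ := hz
        exact z1 (he.symm.trans (show e ∈ K from b ▸ mem_top e))
  have tt : t * t = 1 := by rwa [← sq]
  obtain ⟨r, r2, rt⟩ : ∃ r : E, r ^ 2 = z ∧ t * r = z * (r * t) := by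
    obtain ⟨s, hs'⟩ : ∃ s, t * s ≠ s * t := by
      by_contra h
      push Not at h
      exact t1 (Z t (mem_center_iff.2 fun g => (h g).symm))
    have a := (cm t s).resolve_left hs'
    rcases hs s with b | b
    · refine ⟨t * s, ?_, ?_⟩
      · rw [sq, mul_assoc, ← mul_assoc s, ← mul_assoc t, ← mul_assoc t, a, mul_assoc z, mul_assoc s, tt,
          mul_one, mul_assoc, ← sq, b, mul_one]
      · rw [← mul_assoc, tt, one_mul, a, mul_assoc z, ← mul_assoc z, zz, one_mul, mul_assoc, tt, mul_one]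
    · exact ⟨s, b, a⟩
  have iv : ∀ {u v : E}, u ^ 2 = z → v * u = z * (u * v) → v * u * v⁻¹ = u⁻¹ := fun {u v} a b => by
    rw [b, mul_assoc, mul_inv_cancel_right, eq_inv_iff_mul_eq_one, mul_assoc, ← sq, a, zz]
  have o4 : ∀ {u : E}, u ^ 2 = z → orderOf u = 4 := fun {u} a =>
    orderOf_eq_prime_pow (p := 2) (n := 1) (by rwa [pow_one, a]) (by
      rw [show 2 ^ (1 + 1) = 2 * 2 from rfl, pow_mul, a, sq, zz])
  have nm : ∀ {u v : E}, v * u = z * (u * v) → v ∉ zpowers u := fun {u v} a ⟨k, b⟩ => by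
    have : v * u = u * v := by rw [← b]; exact (Commute.zpow_self u k).eq
    exact z1 (by simpa [this] using a.symm)
  have nc : ∀ {u v : E}, v * u = z * (u * v) → v * u ≠ u * v := fun a b => z1 (by simpa [b] using a.symm)
  have sw : ∀ {u v : E}, v * u = z * (u * v) → u * v = z * (v * u) := fun a => by
    rw [a, ← mul_assoc, zz, one_mul]
  let A : Subgroup E := centralizer {r} ⊓ centralizer {t}
  have mA : ∀ g, g ∈ A ↔ g * r = r * g ∧ g * t = t * g := fun g => by
    simp only [A, mem_inf, mem_centralizer_singleton_iff]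
  have zA : z ∈ A := (mA z).2 ⟨zm r, zm t⟩
  let χ : E → Prop × Prop := fun g => (g * r = r * g, g * t = t * g)
  have k1 : ∀ g b u : E, (g * b⁻¹) * u = u * (g * b⁻¹) ↔ (g * u = u * g ↔ b * u = u * b) := by
    intro g b u
    have e : (g * b⁻¹) * u = u * (g * b⁻¹) ↔ g⁻¹ * u * g = b⁻¹ * u * b := by
      constructor <;> intro h
      · calc _ = g⁻¹ * (u * (g * b⁻¹)) * b := by group
          _ = _ := by rw [← h]; group
      · calc _ = g * (b⁻¹ * u * b) * b⁻¹ := by group
          _ = _ := by rw [← h]; group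
    have f : ∀ c : E, (c * u = u * c ∧ c⁻¹ * u * c = u) ∨ (c * u ≠ u * c ∧ c⁻¹ * u * c = z * u) := by
      intro c
      rcases cm u c with a | a
      · exact .inl ⟨a.symm, by rw [mul_assoc, a, inv_mul_cancel_left]⟩
      · exact .inr ⟨(nc a).symm, by rw [mul_assoc, a, ← mul_assoc, ← zm, mul_assoc, inv_mul_cancel_left]⟩
    rw [e]
    rcases f g with ⟨a, c⟩ | ⟨a, c⟩ <;> rcases f b with ⟨a', c'⟩ | ⟨a', c'⟩ <;> rw [c, c'] <;>
      simp [a, a', z1, z1.symm]
  have k2 : ∀ g b, g * b⁻¹ ∈ A ↔ χ g = χ b := fun g b => by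
    rw [mA, k1, k1]; simp [χ]
  have c1 : χ 1 = (True, True) := by simp [χ]
  have c2 : χ r = (True, False) := by simp [χ, (nc rt).symm]
  have c3 : χ t = (False, True) := by simp [χ, nc rt]
  have c4 : χ (r * t) = (False, False) := by
    simp only [χ, mul_assoc, mul_right_inj, nc rt, Prod.mk.injEq, true_and, eq_iff_iff, iff_false]
    rw [← mul_assoc, ← mul_assoc, mul_left_inj]
    exact (nc rt).symm
  have cnt : ∀ (Q : E → Prop) (b : E), {g | Q g ∧ χ g = χ b}.ncard = {a | a ∈ A ∧ Q (a * b)}.ncard := by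
    intro Q b
    rw [← Set.ncard_image_of_injective {a | a ∈ A ∧ Q (a * b)} (mul_left_injective b)]
    congr 1
    ext g
    exact ⟨fun h => ⟨g * b⁻¹, ⟨(k2 _ _).2 h.2, by simpa using h.1⟩, by simp⟩, by
      rintro ⟨a, h, rfl⟩; exact ⟨h.2, (k2 _ _).1 (by simpa using h.1)⟩⟩
  have tot : ∀ Q : E → Prop, {g | Q g}.ncard = {a | a ∈ A ∧ Q (a * 1)}.ncard +
      {a | a ∈ A ∧ Q (a * r)}.ncard + {a | a ∈ A ∧ Q (a * t)}.ncard +
      {a | a ∈ A ∧ Q (a * (r * t))}.ncard := fun Q => by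
    have d : ∀ u v : Prop × Prop, u ≠ v → Disjoint {g | Q g ∧ χ g = u} {g | Q g ∧ χ g = v} :=
      fun u v h => Set.disjoint_left.2 fun g a b => h (a.2.symm.trans b.2)
    rw [← cnt, ← cnt, ← cnt, ← cnt, c1, c2, c3, c4, ← Set.ncard_union_eq (d _ _ (by simp)),
      ← Set.ncard_union_eq (Set.disjoint_union_left.2 ⟨d _ _ (by simp), d _ _ (by simp)⟩),
      ← Set.ncard_union_eq (Set.disjoint_union_left.2 ⟨Set.disjoint_union_left.2
        ⟨d _ _ (by simp), d _ _ (by simp)⟩, d _ _ (by simp)⟩)]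
    congr 1
    ext g
    by_cases a : g * r = r * g <;> by_cases b : g * t = t * g <;> simp [χ, a, b]
  have A8 : Nat.card A = 8 := by
    have := tot fun _ => True
    simp only [and_true, Set.setOf_true, Set.ncard_univ, hE] at this
    change 32 = Nat.card A + Nat.card A + Nat.card A + Nat.card A at this
    omega
  have i2 : ∀ a ∈ A, a ^ 2 = 1 → a ∈ zpowers z := by
    have h1 := tot fun g => g ^ 2 = 1
    have e : ∀ b : E, (∀ a ∈ A, a * b = b * a) → b ^ 2 = 1 →
        {a | a ∈ A ∧ (a * b) ^ 2 = 1} = {a | a ∈ A ∧ a ^ 2 = 1} := fun b h h' =>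
      Set.ext fun a => and_congr_right fun ha => by rw [Commute.mul_pow (h a ha), h', mul_one]
    have e2 : {a | a ∈ A ∧ (a * r) ^ 2 = 1} = {a | a ∈ A ∧ a ^ 2 = z} :=
      Set.ext fun a => and_congr_right fun ha => by
        rw [Commute.mul_pow ((mA a).1 ha).1, r2, mul_eq_one_iff_eq_inv, inv_eq_of_mul_eq_one_right zz]
    rw [e 1 (by simp) (by simp), e2, e t (fun a ha => ((mA a).1 ha).2) t2, e (r * t) (fun a ha => by
      rw [← mul_assoc, ((mA a).1 ha).1, mul_assoc, ((mA a).1 ha).2, mul_assoc]) (by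
      rw [sq, mul_assoc, ← mul_assoc t, rt, mul_assoc, mul_assoc, tt, mul_one, zm, ← mul_assoc, ← sq,
        r2, zz])] at h1
    have h2 : {a | a ∈ A ∧ a ^ 2 = 1}.ncard + {a | a ∈ A ∧ a ^ 2 = z}.ncard = 8 := by
      rw [← Set.ncard_union_eq (Set.disjoint_left.2 fun g a b => z1 (b.2.symm.trans a.2)), ← A8]
      change _ = (A : Set E).ncard
      congr 1
      ext g
      exact ⟨fun h => h.elim And.left And.left, fun h => (hs g).imp (⟨h, ·⟩) (⟨h, ·⟩)⟩
    have h3 := dvd_ncard (zpowers z) {a | a ∈ A ∧ a ^ 2 = 1} fun a ha s h => by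
      rcases (mz s).1 h with rfl | rfl
      · simpa using ha
      · exact ⟨mul_mem ha.1 zA, by rw [Commute.mul_pow (zm a).symm, ha.2, sq, zz, one_mul]⟩
    rw [Nat.card_zpowers, zo] at h3
    exact fun a ha h => pair {a | a ∈ A ∧ a ^ 2 = 1} (by omega) ⟨one_mem _, by simp⟩
      ⟨zA, by rwa [sq]⟩ a ⟨ha, h⟩
  have dec : ∀ g, ∃ a ∈ A, ∃ b ∈ closure ({r, t} : Set E), g = a * b := fun g => by
    have hr : r ∈ closure ({r, t} : Set E) := subset_closure (by simp)
    have ht : t ∈ closure ({r, t} : Set E) := subset_closure (by simp)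
    have : ∃ b ∈ closure ({r, t} : Set E), χ g = χ b := by
      by_cases a : g * r = r * g <;> by_cases b : g * t = t * g
      · exact ⟨1, one_mem _, by rw [c1]; simp [χ, a, b]⟩
      · exact ⟨r, hr, by rw [c2]; simp [χ, a, b]⟩
      · exact ⟨t, ht, by rw [c3]; simp [χ, a, b]⟩
      · exact ⟨_, mul_mem hr ht, by rw [c4]; simp [χ, a, b]⟩
    obtain ⟨b, h1, h2⟩ := this
    exact ⟨_, (k2 _ _).2 h2, b, h1, by simp⟩
  have AB : ∀ a ∈ A, ∀ b ∈ closure ({r, t} : Set E), a * b = b * a := fun a ha b hb => by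
    have : closure ({r, t} : Set E) ≤ centralizer {a} := (closure_le _).2 (by
      rintro _ (rfl | rfl) <;> refine mem_centralizer_singleton_iff.2 ?_
      exacts [((mA a).1 ha).1.symm, ((mA a).1 ha).2.symm])
    exact (mem_centralizer_singleton_iff.1 (this hb)).symm
  have cen : ∀ g, (∀ a ∈ A, g * a = a * g) → g ∈ A → g ∈ center E := fun g h1 h2 =>
    mem_center_iff.2 fun x => by
      obtain ⟨a, ha, b, hb, rfl⟩ := dec x
      rw [mul_assoc, ← AB g h2 b hb, ← mul_assoc, ← h1 a ha, mul_assoc]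
  refine ⟨A, closure {r, t}, ?_, H11.nonempty_closure_equiv_dihedral (by norm_num) (o4 r2) (iv r2 rt)
    tt (nm rt), AB, (eq_top_iff' _).2 fun g => ?_, le_antisymm (fun g hg => cen g (fun a ha =>
      (AB a ha g hg.2).symm) hg.1) fun g hg => ?_⟩
  · obtain ⟨u, hu, v, hv, uv⟩ : ∃ u ∈ A, ∃ v ∈ A, v * u ≠ u * v := by
      by_contra h
      push Not at h
      have := card_le_of_le (show A ≤ zpowers z from fun g hg => Z g (cen g (fun a ha => h a ha g hg) hg))
      rw [A8, Nat.card_zpowers, zo] at this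
      omega
    have a := (cm v u).resolve_left uv
    have s2 : ∀ {u v : E}, u ∈ A → v * u = z * (u * v) → u ^ 2 = z := fun {u v} hu a =>
      (hs u).resolve_left fun b => nc a (mem_center_iff.1 (zpowers_le.2 zc (i2 u hu b)) v)
    obtain ⟨e⟩ := H11.nonempty_closure_equiv_quaternion (n := 2) (by norm_num) (o4 (s2 hu a))
      (iv (s2 hu a) a) (by rw [← sq, s2 hv (sw a), s2 hu a]) (nm a)
    have : closure {u, v} = A := eq_of_le_of_card_ge ((closure_le _).2 (Set.pair_subset hu hv)) (by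
      rw [A8, Nat.card_congr e.toEquiv, Nat.card_eq_fintype_card, QuaternionGroup.card])
    exact ⟨(MulEquiv.subgroupCongr this.symm).trans e⟩
  · obtain ⟨a, ha, b, hb, rfl⟩ := dec g
    exact mul_mem (mem_sup_left ha) (mem_sup_right hb)
  · rcases (mz g).1 (Z g hg) with rfl | rfl
    · exact one_mem _
    · exact ⟨zA, r2 ▸ pow_mem (subset_closure (by simp)) 2⟩

end Cfsg.Agent.H22.Sr
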