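import Cfsg.Agent.H22.Sr1
import Cfsg.Agent.H2.Prim

/-! Extensions of a 2-group by `A₅` with sectional 2-rank at most 4. -/

set_option autoImplicit false
set_option linter.style.haveILetI false

namespace Cfsg.Agent.H22.Sr
open Subgroup

universe u
variable {G : Type u} [Group G]

/-- The subgroup generated by the squares of elements of `P`. -/
def Sq (P : Subgroup G) : Subgroup G := closure ((fun p => p ^ 2) '' P)

theorem sq_mem {P : Subgroup G} {p : G} (h : p ∈ P) : p ^ 2 ∈ Sq P := subset_closure ⟨p, h, rfl⟩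

theorem Sq_le_iff {P K : Subgroup G} : Sq P ≤ K ↔ ∀ p ∈ P, p ^ 2 ∈ K :=
  (closure_le _).trans ⟨fun h p hp => h ⟨p, hp, rfl⟩, by rintro h _ ⟨p, hp, rfl⟩; exact h p hp⟩

theorem Sq_le {P : Subgroup G} : Sq P ≤ P := Sq_le_iff.2 fun _ hp => pow_mem hp 2

theorem comm_mem {P : Subgroup G} {a b : G} (ha : a ∈ P) (hb : b ∈ P) : a * b * a⁻¹ * b⁻¹ ∈ Sq P :=
  comm_eq a b ▸ mul_mem (mul_mem (sq_mem (mul_mem ha hb))
    (sq_mem (mul_mem (mul_mem (inv_mem hb) (inv_mem ha)) hb))) (sq_mem (inv_mem hb))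

theorem Sq_map {H : Type*} [Group H] (f : G →* H) (P : Subgroup G) : Sq (P.map f) = (Sq P).map f := by
  rw [Sq, Sq, MonoidHom.map_closure, coe_map, Set.image_image, Set.image_image]
  simp

instance Sq_normal (P : Subgroup G) [h : P.Normal] : (Sq P).Normal := ⟨fun n hn g =>
  (show Sq P ≤ (Sq P).comap (MulAut.conj g).toMonoidHom from Sq_le_iff.2 fun p hp => by
    rw [mem_comap, map_pow]; exact sq_mem (h.conj_mem p hp g)) hn⟩

theorem normal_of_central {N : Subgroup G} (h : N ≤ center G) : N.Normal :=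
  ⟨fun n hn g => by rwa [mem_center_iff.1 (h hn) g, mul_inv_cancel_right]⟩

theorem pw {Q : Type*} [Group Q] {π : G →* Q} (h : IsPGroup 2 π.ker) {r : ℕ} (hr : r.Prime) (h2 : r ≠ 2)
    {d : G} (hd : orderOf (π d) = r) : ∃ k, (d ^ k) ^ r = 1 ∧ d ^ k ∉ π.ker := by
  obtain ⟨k, hk⟩ := h ⟨d ^ r, by rw [MonoidHom.mem_ker, map_pow, ← hd, pow_orderOf_eq_one]⟩
  refine ⟨2 ^ k, by rw [← pow_mul, mul_comm, pow_mul]; exact congrArg Subtype.val hk, fun a => ?_⟩
  rw [MonoidHom.mem_ker, map_pow, ← orderOf_dvd_iff_pow_eq_one, hd] at a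
  exact h2 ((Nat.prime_dvd_prime_iff_eq hr Nat.prime_two).1 (hr.dvd_of_dvd_pow a))

theorem cent_of_simple {Q : Type*} [Group Q] [IsSimpleGroup Q] {π : G →* Q} (hs : Function.Surjective π)
    {A : Subgroup G} [A.Normal] (hc : π.ker ≤ centralizer A) {y : G} (hy : y ∉ π.ker)
    (hA : A ≤ centralizer {y}) : A ≤ center G := by
  have a : (centralizer (A : Set G)).map π = ⊤ :=
    ((inferInstance : (centralizer (A : Set G)).Normal).map π hs).eq_bot_or_eq_top.resolve_left fun e =>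
      hy (mem_bot.1 (e ▸ mem_map_of_mem π (show y ∈ centralizer (A : Set G) from fun a ha =>
        mem_centralizer_singleton_iff.1 (hA ha))))
  intro x hx
  refine mem_center_iff.2 fun g => ?_
  have : g ∈ centralizer (A : Set G) := by
    rw [← comap_map_eq_self hc, a]; trivial
  exact (this x hx).symm

/-- An involutory action on an elementary abelian group. -/
theorem invol [Finite G] {A : Subgroup G} [hA : A.Normal] (h2 : ∀ a ∈ A, a ^ 2 = 1) {x : G}
    (hx : x ^ 2 ∈ A) (hc : Nat.card (A ⊓ centralizer {x} : Subgroup G) ^ 2 ≤ Nat.card A) :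
    (∃ a ∈ A, (x * a) ^ 2 = 1) ∧ Nat.card (A ⊓ centralizer {x} : Subgroup G) ^ 2 = Nat.card A := by
  have cm : ∀ a ∈ A, ∀ b ∈ A, a * b = b * a := fun a ha b hb =>
    comm_of_sq (h2 a ha) (h2 b hb) (h2 _ (mul_mem ha hb))
  let f : A →* G := MonoidHom.mk' (fun a => x * a * x⁻¹ * a) fun a b => by
    simp only [coe_mul]
    rw [mul_assoc (x * a * x⁻¹), ← mul_assoc (a : G), cm a a.2 _ (hA.conj_mem b b.2 x)]
    group
  have e : f.ker = (A ⊓ centralizer {x}).subgroupOf A := by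
    ext g
    have : (g : G)⁻¹ = g := inv_eq_of_mul_eq_one_right (by rw [← sq, h2 g g.2])
    simp only [MonoidHom.mem_ker, mem_subgroupOf, mem_inf, mem_centralizer_singleton_iff, g.2,
      true_and, f, MonoidHom.mk'_apply]
    rw [mul_eq_one_iff_eq_inv, this, mul_inv_eq_iff_eq_mul, eq_comm]
  have r : f.range ≤ A ⊓ centralizer {x} := by
    rintro _ ⟨a, rfl⟩
    refine ⟨mul_mem (hA.conj_mem a a.2 x) a.2, mem_centralizer_singleton_iff.2 ?_⟩
    change x * a * x⁻¹ * a * x = x * (x * a * x⁻¹ * a)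
    calc _ = a * (x * a * x⁻¹) * x := by rw [cm _ (hA.conj_mem a a.2 x) a a.2]
      _ = a * x ^ 2 * x⁻¹ * a := by rw [sq]; group
      _ = _ := by rw [← cm _ hx a a.2, sq]; group
  have k := f.ker.card_mul_index
  rw [index_ker, e, Nat.card_congr (subgroupOfEquivOfLe inf_le_left).toEquiv] at k
  have l := card_le_of_le r
  have p : 0 < Nat.card (A ⊓ centralizer {x} : Subgroup G) := Nat.card_pos
  have q : Nat.card (A ⊓ centralizer {x} : Subgroup G) ≤ Nat.card f.range := by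
    rw [← k, sq] at hc; exact Nat.le_of_mul_le_mul_left hc p
  refine ⟨?_, by rw [← k, sq, le_antisymm l q]⟩
  obtain ⟨a, ha⟩ : x ^ 2 ∈ f.range := eq_of_le_of_card_ge r q ▸
    ⟨hx, mem_centralizer_singleton_iff.2 (Commute.pow_self x 2).eq⟩
  refine ⟨a, a.2, ?_⟩
  calc (x * a) ^ 2 = x * a * x⁻¹ * (x ^ 2 * a) := by rw [sq, sq]; group
    _ = f a * x ^ 2 := by rw [cm _ hx _ a.2, ← mul_assoc]; rfl
    _ = 1 := by rw [ha, ← sq, h2 _ hx]

theorem small_normal [Finite G] {T : Subgroup G} [hT : T.Normal] (h : Nat.card T ≤ 2) {t : G} (ht : t ∈ T) :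
    t ^ 2 = 1 ∧ ∀ g, g * t * g⁻¹ = t := by
  by_cases t1 : t = 1
  · simp [t1]
  have e : ∀ u ∈ T, u ≠ 1 → u = t := fun u hu u1 => by
    have := Set.eq_of_subset_of_ncard_le (s := {1, t}) (t := (T : Set G)) (Set.pair_subset (one_mem T) ht)
      (by rw [Set.ncard_pair (Ne.symm t1)]; exact h)
    rw [← SetLike.mem_coe, ← this] at hu
    exact hu.resolve_left u1
  refine ⟨?_, fun g => e _ (hT.conj_mem t ht g) (by simpa using t1)⟩
  by_contra a
  exact t1 (by simpa [sq] using e _ (pow_mem ht 2) a)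

abbrev A5 := alternatingGroup (Fin 5)

structure St (π : G →* A5) : Prop where
  surj : Function.Surjective π
  two : IsPGroup 2 π.ker
  sr : SR G
  faith : ∀ y, (∀ p ∈ π.ker, y * p * y⁻¹ * p⁻¹ ∈ Sq π.ker) → y ∈ π.ker

set_option maxRecDepth 100000 in
theorem a5 : ∃ τ γ σ : A5, τ ^ 2 = 1 ∧ τ ≠ 1 ∧ orderOf (τ * (γ * τ * γ⁻¹)) = 5 ∧ orderOf σ = 3 := by
  haveI := Fact.mk Nat.prime_five
  refine ⟨⟨Equiv.swap 0 1 * Equiv.swap 2 3, by simp⟩, ⟨Equiv.swap 0 2 * Equiv.swap 2 4, by simp⟩,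
    ⟨Equiv.swap 0 2 * Equiv.swap 2 4, by simp⟩, by decide, by decide, ?_, ?_⟩ <;>
    rw [orderOf_eq_prime_iff] <;> decide

/-- Elements of order 5 modulo the kernel act freely on `A`. -/
def Fpf (π : G →* A5) (A : Subgroup G) : Prop :=
  ∀ d, orderOf (π d) = 5 → ∀ a ∈ A, a * d = d * a → a = 1

namespace St
variable [Finite G] {π : G →* A5} (h : St π)
include h

theorem ex5 : ∃ c, c ^ 5 = 1 ∧ orderOf (π c) = 5 := by
  obtain ⟨τ, γ, -, -, -, a, -⟩ := a5
  obtain ⟨d, hd⟩ := h.surj (τ * (γ * τ * γ⁻¹))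
  obtain ⟨k, h1, h2⟩ := pw h.two Nat.prime_five (by norm_num) (hd ▸ a)
  haveI := Fact.mk Nat.prime_five
  exact ⟨_, h1, orderOf_eq_prime (by rw [← map_pow, h1, map_one]) h2⟩

theorem dich {A : Subgroup G} [hA : A.Normal] (hl : A ≤ π.ker) (hc : π.ker ≤ centralizer A)
    (h2 : ∀ a ∈ A, a ^ 2 = 1) : A ≤ center G ∨ (Nat.card A = 16 ∧ Fpf π A) := by
  refine or_iff_not_imp_left.2 fun hn => ?_
  have key : ∀ d, orderOf (π d) = 5 → Nat.card A = 16 ∧ ∀ a ∈ A, a * d = d * a → a = 1 := by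
    intro d hd
    obtain ⟨k, h1, h3⟩ := pw h.two Nat.prime_five (by norm_num) hd
    have a := fixs Nat.prime_five h1 A fun t ht => hA.conj_mem t ht _
    have b : Nat.card (A ⊓ centralizer {d ^ k} : Subgroup G) ≠ Nat.card A := fun e => hn
      (cent_of_simple h.surj hc h3 (inf_eq_left.1 (eq_of_le_of_card_ge inf_le_left e.ge)))
    have c := h.sr A ⊥ bot_le (by simp) h2
    obtain ⟨i, hi⟩ := (h.two.to_le hl).exists_card_eq
    have e := card_dvd_of_le (inf_le_left : A ⊓ centralizer {d ^ k} ≤ A)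
    rw [hi] at a b c e
    obtain ⟨j, hj, e⟩ := (Nat.dvd_prime_pow Nat.prime_two).1 e
    rw [e] at a b
    have i4 : i ≤ 4 := (Nat.pow_le_pow_iff_right (by norm_num)).1 (c.trans (by simp : _ ≤ 2 ^ 4))
    have : i = 4 ∧ j = 0 := by
      unfold Nat.ModEq at a
      interval_cases i <;> interval_cases j <;> simp_all
    refine ⟨by rw [hi, this.1]; rfl, fun x hx xd => ?_⟩
    rw [this.2, pow_zero, card_eq_one] at e
    exact mem_bot.1 (e ▸ ⟨hx, mem_centralizer_singleton_iff.2 (Commute.pow_right xd k).eq⟩)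
  obtain ⟨c, -, hc⟩ := h.ex5
  exact ⟨(key c hc).1, fun d hd => (key d hd).2⟩

theorem inv4 {A : Subgroup G} [hA : A.Normal] (hf : Fpf π A) {x : G} {γ : A5}
    (hx : orderOf (π x * (γ * π x * γ⁻¹)) = 5) :
    Nat.card (A ⊓ centralizer {x} : Subgroup G) ^ 2 ≤ Nat.card A := by
  obtain ⟨g, rfl⟩ := h.surj γ
  refine le_trans ?_ (Nat.card_le_card_of_injective (α := (A ⊓ centralizer {x} : Subgroup G) ×
    (A ⊓ centralizer {x} : Subgroup G)) (fun u => (⟨u.1 * (g * u.2 * g⁻¹),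
      mul_mem u.1.2.1 (hA.conj_mem _ u.2.2.1 g)⟩ : A)) ?_)
  · rw [Nat.card_prod, sq]
  · rintro ⟨a, b⟩ ⟨c, d⟩ e
    have e1 : (a : G) * (g * b * g⁻¹) = c * (g * d * g⁻¹) := congrArg Subtype.val e
    have e2 : ((c⁻¹ * a : _) : G) = g * (d * b⁻¹ : _) * g⁻¹ := by
      simp only [coe_mul, coe_inv]
      calc _ = (c : G)⁻¹ * (a * (g * b * g⁻¹)) * (g * b * g⁻¹)⁻¹ := by group
        _ = _ := by rw [e1]; group
    have c1 := mem_centralizer_singleton_iff.1 (c⁻¹ * a).2.2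
    have c2 := mem_centralizer_singleton_iff.1 (d * b⁻¹).2.2
    have e3 := hf (x * (g * x * g⁻¹)) (by simpa using hx) _ (c⁻¹ * a).2.1 (by
      rw [← mul_assoc, c1, mul_assoc, mul_assoc x, e2]
      congr 1
      calc _ = g * ((d * b⁻¹ : _) * x) * g⁻¹ := by group
        _ = _ := by rw [c2]; group)
    rw [e3, eq_comm, mul_inv_eq_one, mul_eq_left] at e2
    exact Prod.ext (inv_mul_eq_one.1 (Subtype.ext e3)).symm (mul_inv_eq_one.1 (Subtype.ext e2)).symm

theorem quot (N : Subgroup G) [N.Normal] (hN : N ≤ Sq π.ker) :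
    ∃ ρ : G ⧸ N →* A5, St ρ ∧ (∀ g : G, ρ g = π g) ∧ ρ.ker = π.ker.map (QuotientGroup.mk' N) := by
  have hl : N ≤ π.ker := hN.trans Sq_le
  have e := QuotientGroup.ker_lift N π hl
  refine ⟨QuotientGroup.lift N π hl, ⟨QuotientGroup.lift_surjective_of_surjective N π h.surj hl,
    e ▸ h.two.map _, h.sr.quot N, fun y hy => ?_⟩, fun g => rfl, e⟩
  obtain ⟨y, rfl⟩ := QuotientGroup.mk_surjective y
  rw [e] at hy ⊢
  refine mem_map_of_mem _ (h.faith y fun p hp => ?_)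
  have := hy _ (mem_map_of_mem _ hp)
  rw [Sq_map] at this
  rw [← comap_map_eq_self (f := QuotientGroup.mk' N) (H := Sq π.ker) (by rwa [QuotientGroup.ker_mk'])]
  exact this

theorem elem (hS : Sq π.ker = ⊥) : Nat.card π.ker = 16 ∧ Fpf π π.ker := by
  have h2 : ∀ a ∈ π.ker, a ^ 2 = 1 := fun a ha => mem_bot.1 (hS ▸ sq_mem ha)
  refine (h.dich le_rfl (fun a ha b hb => comm_of_sq (h2 b hb) (h2 a ha) (h2 _ (mul_mem hb ha)))
    h2).resolve_left fun hc => ?_
  obtain ⟨c, -, a⟩ := h.ex5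
  rw [show π c = 1 from h.faith c fun p hp => by
    rw [mem_center_iff.1 (hc hp) c]; simp [one_mem], orderOf_one] at a
  omega

theorem vv : Nat.card π.ker = 16 * Nat.card (Sq π.ker) ∧
    (∀ d, orderOf (π d) = 5 → ∀ p ∈ π.ker, d * p * d⁻¹ * p⁻¹ ∈ Sq π.ker → p ∈ Sq π.ker) ∧
    ∀ B : Subgroup G, B.Normal → Sq π.ker ≤ B → B ≤ π.ker → B ≤ Sq π.ker ∨ π.ker ≤ B := by
  obtain ⟨ρ, hρ, e1, e2⟩ := h.quot (Sq π.ker) le_rfl
  obtain ⟨a, b⟩ := hρ.elem (by rw [e2, Sq_map, QuotientGroup.map_mk'_self])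
  have k : ∀ {B : Subgroup G}, Sq π.ker ≤ B → (B.map (QuotientGroup.mk' (Sq π.ker))).comap
      (QuotientGroup.mk' (Sq π.ker)) = B := fun hB => comap_map_eq_self (by rwa [QuotientGroup.ker_mk'])
  refine ⟨by rw [← a, e2, mul_comm, ← card_comap, k Sq_le], fun d hd p hp hc => ?_, fun B hB h1 h2 => ?_⟩
  · rw [← QuotientGroup.eq_one_iff] at hc ⊢
    refine b d (by rwa [e1]) p (e2 ▸ mem_map_of_mem _ hp) ?_
    symm; simpa [mul_inv_eq_iff_eq_mul] using hc
  · obtain ⟨c, c5, hc⟩ := hρ.ex5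
    have n := hB.map (QuotientGroup.mk' (Sq π.ker)) (QuotientGroup.mk'_surjective _)
    have l : B.map (QuotientGroup.mk' (Sq π.ker)) ≤ ρ.ker := e2 ▸ map_mono h2
    have f := fixs Nat.prime_five c5 _ fun t ht => n.conj_mem t ht c
    rw [show B.map (QuotientGroup.mk' (Sq π.ker)) ⊓ centralizer {c} = ⊥ from eq_bot_iff.2 fun t ht =>
      b c hc t (l ht.1) (mem_centralizer_singleton_iff.1 ht.2), card_bot] at f
    obtain ⟨j, hj, e⟩ := (Nat.dvd_prime_pow Nat.prime_two (m := 4)).1 ((card_dvd_of_le l).trans a.dvd)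
    rw [e] at f
    have : j = 0 ∨ j = 4 := by
      unfold Nat.ModEq at f
      interval_cases j <;> simp_all
    rcases this with rfl | rfl
    · rw [pow_zero, card_eq_one, Subgroup.map_eq_bot_iff, QuotientGroup.ker_mk'] at e
      exact .inl e
    · right
      rw [← k h1, eq_of_le_of_card_ge l (by rw [a, e]; rfl), e2, k Sq_le]

theorem not16 (hc : π.ker ≤ centralizer (Sq π.ker)) (h2 : ∀ a ∈ Sq π.ker, a ^ 2 = 1)
    (h16 : Nat.card (Sq π.ker) = 16) (hf : Fpf π (Sq π.ker)) : False := by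
  obtain ⟨ρ, hρ, e1, e2⟩ := h.quot (Sq π.ker) le_rfl
  have hb : Sq ρ.ker = ⊥ := by rw [e2, Sq_map, QuotientGroup.map_mk'_self]
  obtain ⟨a, b⟩ := hρ.elem hb
  have s2 : ∀ a ∈ ρ.ker, a ^ 2 = 1 := fun a ha => mem_bot.1 (hb ▸ sq_mem ha)
  obtain ⟨τ, γ, -, t2, t1, t5, -⟩ := a5
  obtain ⟨x0, hx0⟩ := hρ.surj τ
  obtain ⟨⟨y, hy, y2⟩, -⟩ := invol s2 (x := x0) (by rw [MonoidHom.mem_ker, map_pow, hx0, t2])
    (hρ.inv4 b (hx0 ▸ t5))
  obtain ⟨x, hx⟩ := QuotientGroup.mk_surjective (x0 * y)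
  have px : ρ x = τ := by rw [hx, map_mul, hx0, MonoidHom.mem_ker.1 hy, mul_one]
  rw [← hx] at y2
  obtain ⟨-, c4⟩ := invol s2 (x := (x : G ⧸ Sq π.ker)) (y2 ▸ one_mem _) (hρ.inv4 b (px ▸ t5))
  have n4 := h.inv4 hf (x := x) (by rw [← e1, px]; exact t5)
  rw [e1] at px
  have x2 : x ^ 2 ∈ Sq π.ker := (QuotientGroup.eq_one_iff _).1 y2
  let C := (centralizer {(x : G ⧸ Sq π.ker)}).comap (QuotientGroup.mk' (Sq π.ker))
  have mC : ∀ w ∈ C, x * w * x⁻¹ * w⁻¹ ∈ Sq π.ker := fun w hw => by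
    have := mem_centralizer_singleton_iff.1 hw
    rw [← QuotientGroup.eq_one_iff]
    simpa [mul_inv_eq_iff_eq_mul] using this.symm
  have xC : x ∈ C := mem_centralizer_singleton_iff.2 rfl
  have cs : ∀ g ∈ C ⊓ (zpowers τ).comap π, g ∈ π.ker ∨ ∃ w ∈ π.ker, w ∈ C ∧ g = w * x := fun g hg => by
    have : π g ∈ zpowers τ := hg.2
    rw [mem_zpowers_iff_mem_range_orderOf, orderOf_eq_prime t2 t1] at this
    obtain ⟨i, hi, e⟩ := Finset.mem_image.1 this
    rw [Finset.mem_range] at hi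
    interval_cases i
    · exact .inl (by rw [MonoidHom.mem_ker, ← e, pow_zero])
    · exact .inr ⟨g * x⁻¹, by rw [MonoidHom.mem_ker, map_mul, map_inv, ← e, px]; simp,
        mul_mem hg.1 (inv_mem xC), by simp⟩
  have cN : ∀ w ∈ π.ker, ∀ n ∈ Sq π.ker, n * w = w * n := fun w hw n hn => hc hw n hn
  have sr := h.sr (C ⊓ (zpowers τ).comap π) (Sq π.ker ⊓ centralizer {x}) (fun n hn => mem_inf.2 ⟨by
      rw [mem_comap, QuotientGroup.mk'_apply, (QuotientGroup.eq_one_iff n).2 hn.1]; exact one_mem _, by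
      rw [mem_comap, MonoidHom.mem_ker.1 (Sq_le hn.1)]; exact one_mem _⟩) (fun g hg n hn => by
      rcases cs g hg with a | ⟨w, a, -, rfl⟩
      · rwa [← cN g a n hn.1, mul_inv_cancel_right]
      · rwa [mul_assoc w, ← mem_centralizer_singleton_iff.1 hn.2, ← mul_assoc, ← cN w a n hn.1,
          mul_assoc n, mul_inv_cancel_right]) (fun g hg => by
      rcases cs g hg with a | ⟨w, a, wC, rfl⟩
      · refine ⟨sq_mem a, mem_centralizer_singleton_iff.2 ?_⟩
        have m := mC g hg.1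
        calc g ^ 2 * x = (x * g * x⁻¹ * g⁻¹) ^ 2 * g ^ 2 * x := by rw [h2 _ m, one_mul]
          _ = (x * g * x⁻¹ * g⁻¹ * g) ^ 2 * x := by rw [Commute.mul_pow (cN g a _ m)]
          _ = _ := by rw [sq, sq]; group
      · have m : (w * x) ^ 2 ∈ Sq π.ker := by
          rw [show (w * x) ^ 2 = w * (x * w * x⁻¹ * w⁻¹) * w⁻¹ * w ^ 2 * x ^ 2 by rw [sq, sq, sq]; group]
          exact mul_mem (mul_mem ((Sq_normal _).conj_mem _ (mC w wC) w) (sq_mem a)) x2
        refine ⟨m, mem_centralizer_singleton_iff.2 (mul_left_cancel (a := w) ?_)⟩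
        rw [← mul_assoc, ← cN w a _ m, mul_assoc, ← mul_assoc w]
        exact (Commute.pow_self _ 2).eq)
  have lt : (ρ.ker ⊓ centralizer {(x : G ⧸ Sq π.ker)}).comap (QuotientGroup.mk' (Sq π.ker)) <
      C ⊓ (zpowers τ).comap π := by
    refine lt_of_le_of_ne (fun g hg => mem_inf.2 ⟨hg.2, ?_⟩) fun e => t1 ?_
    · rw [mem_comap, ← e1, show ρ g = 1 from hg.1]; exact one_mem _
    · have : x ∈ C ⊓ (zpowers τ).comap π := mem_inf.2 ⟨xC, by rw [mem_comap, px]; exact mem_zpowers _⟩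
      rw [← e] at this
      rw [← px, ← e1]; exact this.1
  have lt2 := Set.ncard_lt_ncard (SetLike.coe_ssubset_coe.2 lt)
  change Nat.card _ < Nat.card _ at lt2
  erw [card_comap] at lt2
  rw [a] at c4
  rw [h16] at lt2 n4
  have := Nat.pow_left_injective (n := 2) (by norm_num) (c4.trans (by norm_num : 16 = 4 ^ 2))
  have : Nat.card (Sq π.ker ⊓ centralizer {x} : Subgroup G) ≤ 4 := by nlinarith
  change _ < Nat.card (C ⊓ (zpowers τ).comap π : Subgroup G) at lt2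
  omega

end St
end Cfsg.Agent.H22.Sr
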