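import Cfsg.Agent.H22.Sr2

/-! Extensions of a 2-group by `A₅` with sectional 2-rank at most 4: the induction. -/

set_option autoImplicit false
set_option linter.style.haveILetI false

namespace Cfsg.Agent.H22.Sr
open Subgroup

universe u
variable {G : Type u} [Group G]

theorem sq_mul {P : Subgroup G} (hc : Sq P ≤ center G) {a b : G} (ha : a ∈ P) (hb : b ∈ P) :
    ∃ z ∈ Sq P, z ^ 2 = 1 ∧ (a * b) ^ 2 = z * a ^ 2 * b ^ 2 := by
  have m := comm_mem hb ha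
  have c := mem_center_iff.1 (hc m)
  refine ⟨_, m, ?_, ?_⟩
  · have e : b * a ^ 2 * b⁻¹ = a ^ 2 := by
      rw [mem_center_iff.1 (hc (sq_mem ha)) b, mul_inv_cancel_right]
    refine mul_right_cancel (b := a ^ 2) ?_
    rw [← Commute.mul_pow (c a).symm, one_mul, ← e, inv_mul_cancel_right, conj_pow]
  · calc (a * b) ^ 2 = a * (b * a * b⁻¹ * a⁻¹) * (a * b * b) := by rw [sq]; group
      _ = _ := by rw [c a, sq, sq]; group

namespace St
variable [Finite G] {π : G →* A5} (h : St π)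
include h

theorem not4 (h4 : Nat.card (Sq π.ker) = 4) : False := by
  obtain ⟨c64, v2, v3⟩ := h.vv
  rw [h4] at c64
  obtain ⟨c, c5, hc⟩ := h.ex5
  have c1 : c ∉ π.ker := fun a => by rw [MonoidHom.mem_ker.1 a, orderOf_one] at hc; omega
  have nP : π.ker.Normal := inferInstance
  have nS : (Sq π.ker).Normal := inferInstance
  obtain ⟨p0, hp0, np0⟩ : ∃ p ∈ π.ker, p ∉ Sq π.ker := by
    by_contra a
    push Not at a
    have := card_le_of_le (show π.ker ≤ Sq π.ker from a)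
    omega
  have q0 : c * p0 * c⁻¹ * p0⁻¹ ∈ π.ker := mul_mem (nP.conj_mem _ hp0 c) (inv_mem hp0)
  have full : ∀ B : Subgroup G, B.Normal → Sq π.ker ≤ B → c * p0 * c⁻¹ * p0⁻¹ ∈ B → π.ker ≤ B :=
    fun B hB a b => ((v3 (B ⊓ π.ker) inferInstance (le_inf a Sq_le) inf_le_right).resolve_left
      fun e => np0 (v2 c hc p0 hp0 (e ⟨b, q0⟩))).trans inf_le_left
  have Sc : Sq π.ker ≤ centralizer {c} := by
    have a := fixs Nat.prime_five c5 _ fun t ht => nS.conj_mem t ht c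
    have b := card_le_of_le (inf_le_left : Sq π.ker ⊓ centralizer {c} ≤ _)
    unfold Nat.ModEq at a
    exact inf_eq_left.1 (eq_of_le_of_card_ge inf_le_left (by omega))
  have Z : Sq π.ker ≤ center G := by
    have cK : c ∈ centralizer (Sq π.ker : Set G) := fun a ha => mem_centralizer_singleton_iff.1 (Sc ha)
    have := IsPGroup.isMulCommutative_of_card_eq_prime_sq (p := 2) h4
    refine cent_of_simple h.surj (full _ inferInstance (le_centralizer _) ?_) c1 Sc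
    rw [mul_assoc, mul_assoc, ← mul_assoc p0]
    exact mul_mem cK ((inferInstance : (centralizer (Sq π.ker : Set G)).Normal).conj_mem _ (inv_mem cK) _)
  have zc : ∀ s ∈ Sq π.ker, ∀ g, g * s * g⁻¹ = s := fun s hs g => by
    rw [mem_center_iff.1 (Z hs) g, mul_inv_cancel_right]
  have s2 : ∀ s ∈ Sq π.ker, s ^ 2 = 1 := by
    let K : Subgroup G := ⟨⟨⟨{p | p ∈ π.ker ∧ (p ^ 2) ^ 2 = 1}, fun {a b} ha hb => ⟨mul_mem ha.1 hb.1, by
      obtain ⟨z, hz, z2, e⟩ := sq_mul Z ha.1 hb.1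
      rw [e, Commute.mul_pow (mem_center_iff.1 (Z (sq_mem hb.1)) _),
        Commute.mul_pow (mem_center_iff.1 (Z (sq_mem ha.1)) _), z2, ha.2, hb.2]; simp⟩⟩,
      ⟨one_mem _, by simp⟩⟩, fun {a} ha => ⟨inv_mem ha.1, by rw [inv_pow, inv_pow, ha.2, inv_one]⟩⟩
    have a := full K ⟨fun n hn g => ⟨nP.conj_mem n hn.1 g, by rw [conj_pow, conj_pow, hn.2]; simp⟩⟩
      (fun s hs => ⟨Sq_le hs, by
        rw [← pow_mul, show 2 * 2 = Nat.card (Sq π.ker) from h4.symm]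
        exact congrArg Subtype.val (pow_card_eq_one' (x := (⟨s, hs⟩ : Sq π.ker)))⟩) ⟨q0, by
        obtain ⟨z, hz, z2, e⟩ := sq_mul Z (nP.conj_mem _ hp0 c) (inv_mem hp0)
        rw [e, conj_pow, zc _ (sq_mem hp0), inv_pow, mul_inv_cancel_right, z2]⟩
    let L : Subgroup G := ⟨⟨⟨{p | p ∈ center G ∧ p ^ 2 = 1}, fun {a b} ha hb => ⟨mul_mem ha.1 hb.1, by
      rw [Commute.mul_pow (mem_center_iff.1 hb.1 _), ha.2, hb.2, one_mul]⟩⟩,
      ⟨one_mem _, by simp⟩⟩, fun {a} ha => ⟨inv_mem ha.1, by rw [inv_pow, ha.2, inv_one]⟩⟩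
    exact fun s hs => ((Sq_le_iff (K := L)).2 (fun p hp => ⟨Z (sq_mem hp), (a hp).2⟩) hs).2
  let F : G → Set G := fun a => {p | p ∈ π.ker ∧ p ∉ Sq π.ker ∧ p ^ 2 = a}
  have Fs : ∀ a, ∀ p ∈ F a, ∀ s ∈ Sq π.ker, p * s ∈ F a := fun a p hp s hs =>
    ⟨mul_mem hp.1 (Sq_le hs), fun e => hp.2.1 ((mul_mem_cancel_right hs).1 e), by
      rw [Commute.mul_pow (mem_center_iff.1 (Z hs) _), s2 s hs, mul_one, hp.2.2]⟩
  have Fg : ∀ a g, ∀ p ∈ F a, g * p * g⁻¹ ∈ F a := fun a g p hp =>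
    ⟨nP.conj_mem _ hp.1 g, fun e => hp.2.1 (by simpa [mul_assoc] using nS.conj_mem' _ e g), by
      rw [conj_pow, zc _ (sq_mem hp.1), hp.2.2]⟩
  have F20 : ∀ a, ∀ p ∈ F a, 20 ≤ (F a).ncard := fun a p hp => by
    have h1 := dvd_ncard _ _ (Fs a)
    have h2 := fixc Nat.prime_five c5 _ (Fg a c)
    rw [show {t | t ∈ F a ∧ c * t * c⁻¹ = t} = ∅ from Set.eq_empty_of_forall_notMem fun t ht =>
      ht.1.2.1 (v2 c hc t ht.1.1 (by rw [ht.2, mul_inv_cancel]; exact one_mem _)), Set.ncard_empty] at h2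
    have h3 := (Set.ncard_pos (Set.toFinite _)).2 ⟨p, hp⟩
    unfold Nat.ModEq at h2
    rw [h4] at h1
    omega
  have Fd : ∀ {a b}, a ≠ b → Disjoint (F a) (F b) := fun e => Set.disjoint_left.2 fun p u v =>
    e (u.2.2.symm.trans v.2.2)
  obtain ⟨-, -, σ0, -, -, -, hσ⟩ := a5
  obtain ⟨d, hd⟩ := h.surj σ0
  obtain ⟨k, s3, s1⟩ := pw h.two Nat.prime_three (by norm_num) (hd ▸ hσ)
  generalize d ^ k = σ at s3 s1
  have three : ∀ {a b e u v w : G}, u ∈ F a → v ∈ F b → w ∈ F e → a ≠ b → a ≠ e → b ≠ e → False := by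
    intro a b e u v w hu hv hw ab ae be
    have h1 := ncard3 (T := (π.ker : Set G) \ Sq π.ker) (Fd ab) (Fd ae) (Fd be) (fun p hp => ⟨hp.1, hp.2.1⟩)
      (fun p hp => ⟨hp.1, hp.2.1⟩) (fun p hp => ⟨hp.1, hp.2.1⟩)
    rw [Set.ncard_sdiff (SetLike.coe_subset_coe.2 Sq_le)] at h1
    change _ ≤ Nat.card π.ker - Nat.card (Sq π.ker) at h1
    have m8 : ∀ a, (F a).ncard = 20 → 8 ≤ {t | t ∈ F a ∧ σ * t * σ⁻¹ = t}.ncard := fun a ha => by
      have h2 := fixc Nat.prime_three s3 _ (Fg a σ)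
      have h3 := dvd_ncard (Sq π.ker) {t | t ∈ F a ∧ σ * t * σ⁻¹ = t} fun t ht s hs =>
        ⟨Fs a t ht.1 s hs, by rw [← conj_mul, ht.2, zc s hs]⟩
      unfold Nat.ModEq at h2
      rw [h4] at h3
      omega
    have i : ∀ a, {t | t ∈ F a ∧ σ * t * σ⁻¹ = t} ⊆ (π.ker ⊓ centralizer {σ} : Subgroup G) :=
      fun a t ht => ⟨ht.1.1, mem_centralizer_singleton_iff.2 (mul_inv_eq_iff_eq_mul.1 ht.2).symm⟩
    have h2 := ncard3 ((Fd ab).mono (Set.sep_subset _ _) (Set.sep_subset _ _))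
      ((Fd ae).mono (Set.sep_subset _ _) (Set.sep_subset _ _))
      ((Fd be).mono (Set.sep_subset _ _) (Set.sep_subset _ _)) (i a) (i b) (i e)
    change _ ≤ Nat.card (π.ker ⊓ centralizer {σ} : Subgroup G) at h2
    have := F20 a u hu
    have := F20 b v hv
    have := F20 e w hw
    have := m8 a (by omega)
    have := m8 b (by omega)
    have := m8 e (by omega)
    have h3 := fixs Nat.prime_three s3 _ fun t ht => nP.conj_mem t ht σ
    obtain ⟨j, hj, h5⟩ := (Nat.dvd_prime_pow Nat.prime_two (m := 6)).1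
      ((card_dvd_of_le (inf_le_left : π.ker ⊓ centralizer {σ} ≤ _)).trans c64.dvd)
    have h6 : Nat.card π.ker ≤ Nat.card (π.ker ⊓ centralizer {σ} : Subgroup G) := by
      unfold Nat.ModEq at h3
      rw [h5] at h2 h3 ⊢
      rw [c64] at h3 ⊢
      interval_cases j <;> omega
    have h7 := inf_eq_left.1 (eq_of_le_of_card_ge inf_le_left h6)
    exact s1 (h.faith σ fun p hp => by
      rw [← mem_centralizer_singleton_iff.1 (h7 hp)]; simp [one_mem])
  obtain ⟨p1, hp1, n1⟩ : ∃ p ∈ π.ker, p ^ 2 ≠ 1 := by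
    by_contra a
    push Not at a
    rw [eq_bot_iff.2 (Sq_le_iff.2 a), card_bot] at h4
    omega
  have one : ∀ p ∈ π.ker, p ∉ Sq π.ker → p ^ 2 ≠ 1 := fun p hp np e => by
    have : Sq π.ker ≤ zpowers (p1 ^ 2) := Sq_le_iff.2 fun q hq => by
      by_cases a : q ^ 2 = 1
      · rw [a]; exact one_mem _
      by_cases b : q ^ 2 = p1 ^ 2
      · rw [b]; exact mem_zpowers _
      exact (three ⟨hp, np, e⟩ ⟨hp1, fun c => n1 (s2 _ c), rfl⟩ ⟨hq, fun c => a (s2 _ c), rfl⟩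
        n1.symm (Ne.symm a) (Ne.symm b)).elim
    have := card_le_of_le this
    rw [h4, Nat.card_zpowers, orderOf_eq_prime (s2 _ (sq_mem hp1)) n1] at this
    omega
  obtain ⟨q, hq, cq, nq, npq⟩ := exq Z (p := p0) (fun g hg => comm_mem hg hp0) (by rw [h4, c64]; norm_num)
  have e := Commute.mul_pow cq.symm 2
  refine three ⟨hp0, np0, rfl⟩ ⟨hq, nq, rfl⟩ ⟨mul_mem hp0 hq, npq, e⟩ (fun a => one _ (mul_mem hp0 hq) npq ?_)
    (fun a => one q hq nq (by simpa using a)) (fun a => one p0 hp0 np0 (by simpa using a))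
  rw [e, a, ← sq, s2 _ (sq_mem hq)]

end St

theorem le2 : ∀ (n : ℕ) (G : Type u) [Group G] [Finite G] (π : G →* A5), St π → Nat.card G = n →
    Nat.card (Sq π.ker) ≤ 2 := by
  intro n
  induction n using Nat.strong_induction_on with
  | _ n ih =>
  intro G _ _ π h hn
  have step : ∀ (N : Subgroup G) [N.Normal], N ≠ ⊥ → N ≤ Sq π.ker →
      Nat.card ((Sq π.ker).map (QuotientGroup.mk' N)) ≤ 2 := fun N _ h1 h2 => by
    obtain ⟨ρ, hρ, -, e⟩ := h.quot N h2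
    rw [← Sq_map, ← e]
    refine ih _ ?_ _ ρ hρ rfl
    rw [← hn, card_eq_card_quotient_mul_card_subgroup N]
    exact lt_mul_of_one_lt_right Nat.card_pos ((one_lt_card_iff_ne_bot N).2 h1)
  obtain ⟨k, hk⟩ := (h.two.to_le Sq_le).exists_card_eq
  rcases k with _ | k
  · omega
  have nS : (Sq π.ker).Normal := inferInstance
  obtain ⟨m, hm, m2⟩ := H11.exists_invol_of_even (H := Sq π.ker ⊓ centralizer π.ker) (by
    have := H2.card_modEq_card_inf_centralizer h.two (V := Sq π.ker) (by rw [normalizer_eq_top]; exact le_top)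
    rw [hk, pow_succ] at this
    unfold Nat.ModEq at this
    rw [Nat.even_iff]; omega)
  let M : Subgroup G := ⟨⟨⟨{p | p ∈ Sq π.ker ⊓ centralizer π.ker ∧ p ^ 2 = 1}, fun {a b} ha hb =>
    ⟨mul_mem ha.1 hb.1, by rw [Commute.mul_pow (hb.1.2 a (Sq_le ha.1.1)), ha.2, hb.2, one_mul]⟩⟩,
    ⟨one_mem _, by simp⟩⟩, fun {a} ha => ⟨inv_mem ha.1, by rw [inv_pow, ha.2, inv_one]⟩⟩
  haveI nM : M.Normal := ⟨fun a ha g => ⟨(inferInstance : (Sq π.ker ⊓ centralizer π.ker).Normal).conj_mem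
    a ha.1 g, by rw [conj_pow, ha.2]; simp⟩⟩
  have mM : m ∈ M := ⟨hm, m2 ▸ pow_orderOf_eq_one m⟩
  have m1 := H11.ne_one_of_orderOf_two m2
  have cM : π.ker ≤ centralizer M := fun p hp a ha => (ha.1.2 p hp).symm
  rcases h.dich (A := M) (fun a ha => Sq_le ha.1.1) cM (fun a ha => ha.2) with a | ⟨a, b⟩
  · haveI := normal_of_central (zpowers_le.2 (a mM))
    have c := step (zpowers m) (by simpa using m1) (zpowers_le.2 hm.1)
    have d := card_comap (zpowers m) ((Sq π.ker).map (QuotientGroup.mk' _))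
    rw [comap_map_eq_self (by rw [QuotientGroup.ker_mk']; exact zpowers_le.2 hm.1), Nat.card_zpowers,
      m2] at d
    have e : Nat.card (Sq π.ker) ≠ 4 := h.not4
    rcases k with _ | _ | k
    · omega
    · omega
    · have := Nat.one_le_two_pow (n := k)
      rw [pow_succ, pow_succ, pow_succ] at hk
      omega
  · exfalso
    have c := step M (fun e => m1 (mem_bot.1 (e ▸ mM))) fun a ha => ha.1.1
    haveI := nS.map (QuotientGroup.mk' M) (QuotientGroup.mk'_surjective _)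
    obtain ⟨d, -, hd⟩ := h.ex5
    have s2 : ∀ s ∈ Sq π.ker, s ^ 2 = 1 := fun s hs => by
      obtain ⟨u, v⟩ := small_normal c (mem_map_of_mem _ hs)
      have w : d * s * d⁻¹ * s⁻¹ ∈ M := by
        rw [← QuotientGroup.eq_one_iff]
        simpa [mul_inv_eq_one] using v d
      refine b d hd _ ((QuotientGroup.eq_one_iff _).1 u) (mul_inv_eq_iff_eq_mul.1 ?_).symm
      rw [← conj_pow, ← inv_mul_cancel_right (d * s * d⁻¹) s, Commute.mul_pow (cM (Sq_le hs) _ w), w.2,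
        one_mul]
    have e : M = Sq π.ker := eq_of_le_of_card_ge (fun a ha => ha.1.1)
      (by simpa [a] using h.sr _ ⊥ bot_le (by simp) s2)
    rw [e] at a b cM
    exact h.not16 cM s2 a b

theorem St.fin [Finite G] {π : G →* A5} (h : St π) :
    ((∀ p ∈ π.ker, p ^ 2 = 1) ∧ Nat.card π.ker = 16) ∨ (Nat.card π.ker = 32 ∧ ∃ z c : G, z ∈ π.ker ∧
      z ≠ 1 ∧ z ∈ center G ∧ (∀ p ∈ π.ker, p ^ 2 = 1 ∨ p ^ 2 = z) ∧ (∃ p ∈ π.ker, p ^ 2 = z) ∧ c ^ 5 = 1 ∧
      ∀ p ∈ π.ker, c * p * c⁻¹ = p → p = 1 ∨ p = z) := by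
  have a := le2 _ G π h rfl
  obtain ⟨b, v2, -⟩ := h.vv
  by_cases e : ∀ p ∈ π.ker, p ^ 2 = 1
  · rw [eq_bot_iff.2 (Sq_le_iff.2 e), card_bot] at b
    exact .inl ⟨e, b⟩
  push Not at e
  obtain ⟨p, hp, p1⟩ := e
  obtain ⟨c, c5, hc⟩ := h.ex5
  have f := Set.eq_of_subset_of_ncard_le (s := {1, p ^ 2}) (t := (Sq π.ker : Set G))
    (Set.pair_subset (one_mem _) (sq_mem hp)) (by rw [Set.ncard_pair (Ne.symm p1)]; exact a)
  have g : ∀ s ∈ Sq π.ker, s = 1 ∨ s = p ^ 2 := fun s hs => by rwa [← SetLike.mem_coe, ← f] at hs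
  have k : Nat.card (Sq π.ker) = 2 := by
    change (Sq π.ker : Set G).ncard = 2
    rw [← f, Set.ncard_pair (Ne.symm p1)]
  exact .inr ⟨by rw [b, k], p ^ 2, c, pow_mem hp 2, p1, mem_center_iff.2 fun y =>
    mul_inv_eq_iff_eq_mul.1 ((small_normal a (sq_mem hp)).2 y), fun q hq => g _ (sq_mem hq), ⟨p, hp, rfl⟩,
    c5, fun q hq e => g q (v2 c hc q hq (by rw [e, mul_inv_cancel]; exact one_mem _))⟩

end Cfsg.Agent.H22.Sr
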