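import Cfsg.Agent.H1.Hall

/-! Two primes in `(n/2, n]` and groups with the order and spectrum of `A_n`. -/

set_option autoImplicit false
set_option linter.style.haveILetI false

namespace Cfsg.Agent.H22.Tw

open Nat Subgroup

theorem two_large {n : ℕ} (hn : 512 ≤ n) :
    ∃ p r, p.Prime ∧ r.Prime ∧ n < r ∧ r < p ∧ p ≤ 2 * n := by
  obtain ⟨q, hq, h1, h2⟩ := exists_prime_lt_and_le_two_mul n (by omega)
  by_contra hh
  have hu : ∀ p, p.Prime → n < p → p ≤ 2 * n → p = q := fun p hp a b => by
    rcases lt_trichotomy p q with h | h | h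
    · exact (hh ⟨q, p, hq, hp, a, h, h2⟩).elim
    · exact h
    · exact (hh ⟨p, q, hp, hq, h1, h, b⟩).elim
  have key : centralBinom n ≤ (2 * n) ^ sqrt (2 * n) * 4 ^ (2 * n / 3) := by
    let T := insert q (Finset.Icc 2 (sqrt (2 * n)))
    have hT : T.card ≤ sqrt (2 * n) := (Finset.card_insert_le _ _).trans (by
      have : 0 < sqrt (2 * n) := sqrt_pos.2 (by omega)
      rw [card_Icc]; omega)
    rw [← n.prod_pow_factorization_centralBinom]
    refine (Finset.prod_le_prod' (g := fun x => (if x ∈ T then 2 * n else 1) *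
      if x ≤ 2 * n / 3 ∧ x.Prime then x else 1) fun x hx => ?_).trans ?_
    · by_cases hp : x.Prime
      swap
      · rw [factorization_eq_zero_of_not_prime _ hp, pow_zero]
        refine Nat.mul_pos ?_ ?_ <;> split_ifs with h <;> first | omega | exact (hp h.2).elim
      by_cases h3 : x ∈ T
      · rw [if_pos h3]
        refine (pow_factorization_choose_le (by omega)).trans (Nat.le_mul_of_pos_right _ ?_)
        split_ifs
        · exact hp.pos
        · exact one_pos
      rw [if_neg h3, one_mul]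
      simp only [T, Finset.mem_insert, Finset.mem_Icc, not_or, not_and, not_le] at h3
      split_ifs with h4
      · exact (pow_right_mono₀ hp.one_lt.le
          (factorization_choose_le_one (sqrt_lt'.1 (h3.2 hp.two_le)))).trans (pow_one x).le
      · have h5 : x ≤ n := by
          by_contra h5
          exact h3.1 (hu x hp (by omega) (by have := Finset.mem_range.1 hx; omega))
        rw [factorization_centralBinom_of_two_mul_self_lt_three_mul (by omega) h5 (by
          have : ¬ x ≤ 2 * n / 3 := fun h => h4 ⟨h, hp⟩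
          omega), pow_zero]
    rw [Finset.prod_mul_distrib]
    refine Nat.mul_le_mul ?_ (le_trans ?_ (primorial_le_four_pow (2 * n / 3)))
    · rw [Finset.prod_ite_mem, Finset.prod_const]
      exact pow_right_mono₀ (by omega) ((Finset.card_le_card Finset.inter_subset_right).trans hT)
    · rw [← Finset.prod_filter]
      refine Finset.prod_le_prod_of_subset_of_one_le' (fun x hx => ?_)
        fun p hp _ => (Finset.mem_filter.1 hp).2.one_lt.le
      simp only [Finset.mem_filter, Finset.mem_range] at hx ⊢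
      exact ⟨by omega, hx.2.2⟩
  have := four_pow_lt_mul_centralBinom n (by omega)
  have h3 := bertrand_main_inequality hn
  rw [mul_assoc] at h3
  exact absurd ((Nat.mul_le_mul_left n key).trans h3) (not_le.2 this)

theorem two_primes {n : ℕ} (hn : 11 ≤ n) :
    ∃ p r, p.Prime ∧ r.Prime ∧ n < 2 * r ∧ r < p ∧ p ≤ n := by
  by_cases h : 1024 ≤ n
  · obtain ⟨p, r, a, b, c, d, e⟩ := two_large (n := n / 2) (by omega)
    exact ⟨p, r, a, b, by omega, d, by omega⟩
  by_cases h : 523 ≤ n
  · exact ⟨523, 521, by norm_num, by norm_num, by omega, by omega, h⟩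
  by_cases h : 271 ≤ n
  · exact ⟨271, 269, by norm_num, by norm_num, by omega, by omega, h⟩
  by_cases h : 139 ≤ n
  · exact ⟨139, 137, by norm_num, by norm_num, by omega, by omega, h⟩
  by_cases h : 73 ≤ n
  · exact ⟨73, 71, by norm_num, by norm_num, by omega, by omega, h⟩
  by_cases h : 43 ≤ n
  · exact ⟨43, 41, by norm_num, by norm_num, by omega, by omega, h⟩
  by_cases h : 31 ≤ n
  · exact ⟨31, 29, by norm_num, by norm_num, by omega, by omega, h⟩
  by_cases h : 19 ≤ n
  · exact ⟨19, 17, by norm_num, by norm_num, by omega, by omega, h⟩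
  by_cases h : 13 ≤ n
  · exact ⟨13, 11, by norm_num, by norm_num, by omega, by omega, h⟩
  · exact ⟨11, 7, by norm_num, by norm_num, by omega, by omega, hn⟩

theorem add_le_of_order {n p r : ℕ} (hp : p.Prime) (hr : r.Prime) (hne : p ≠ r)
    {σ : Equiv.Perm (Fin n)} (h : orderOf σ = p * r) : p + r ≤ n := by
  have key : ∀ s : ℕ, s.Prime → s ∣ orderOf σ → ∃ a ∈ σ.cycleType, s ∣ a := fun s hs hd => by
    rw [← Equiv.Perm.lcm_cycleType] at hd
    exact (hs.prime.exists_mem_multiset_dvd (hd.trans (Multiset.lcm_dvd.2 fun b hb =>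
      Multiset.dvd_prod hb)))
  obtain ⟨a, ha, h1⟩ := key p hp (h ▸ dvd_mul_right p r)
  obtain ⟨b, hb, h2⟩ := key r hr (h ▸ dvd_mul_left r p)
  have hs : σ.cycleType.sum ≤ n := by
    rw [Equiv.Perm.sum_cycleType]; simpa using σ.support.card_le_univ
  have a0 := Equiv.Perm.two_le_of_mem_cycleType ha
  have b0 := Equiv.Perm.two_le_of_mem_cycleType hb
  by_cases e : a = b
  · subst e
    have := le_of_dvd (by omega) (((coprime_primes hp hr).2 hne).mul_dvd_of_dvd_of_dvd h1 h2)
    have := Multiset.le_sum_of_mem ha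
    have := Nat.add_le_mul hp.two_le hr.two_le
    omega
  · have h3 := Multiset.le_sum_of_mem ((Multiset.mem_erase_of_ne (Ne.symm e)).2 hb)
    have h4 := Multiset.sum_erase ha
    have := le_of_dvd (by omega) h1
    have := le_of_dvd (by omega) h2
    omega

variable {G : Type*} [Group G] [Finite G]

theorem act {p r : ℕ} (hp : p.Prime) (hr : r.Prime) (hne : p ≠ r) (h : ¬ r ∣ p - 1)
    {P : Subgroup G} (hP : Nat.card P = p) (hd : r ∣ Nat.card (normalizer (P : Set G))) :
    ∃ g : G, orderOf g = p * r := by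
  haveI := Fact.mk hp
  haveI := Fact.mk hr
  haveI : IsCyclic P := isCyclic_of_prime_card hP
  obtain ⟨y, hy⟩ := exists_prime_orderOf_dvd_card' r hd
  obtain ⟨x, hx⟩ := exists_prime_orderOf_dvd_card' (G := P) p hP.symm.dvd
  have h1 : P.normalizerMonoidHom y = 1 := by
    have a := orderOf_map_dvd P.normalizerMonoidHom y
    have b := orderOf_dvd_natCard (P.normalizerMonoidHom y)
    rw [IsCyclic.card_mulAut, hP, totient_prime hp] at b
    rw [hy, dvd_prime hr] at a
    exact orderOf_eq_one_iff.1 (a.resolve_right fun e => h (e ▸ b))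
  have h2 : Commute (x : G) y :=
    (mul_inv_eq_iff_eq_mul.1 (congrArg (fun α : MulAut P => (α x : G)) h1)).symm
  exact ⟨x * y, by
    rw [h2.orderOf_mul_eq_mul_orderOf_of_coprime, orderOf_coe, orderOf_coe, hx, hy]
    rw [orderOf_coe, orderOf_coe, hx, hy]
    exact (coprime_primes hp hr).2 hne⟩

omit [Finite G] in
theorem val_le {n r b : ℕ} (h5 : 5 ≤ n) (hG : Nat.card G = Nat.card (alternatingGroup (Fin n)))
    (hr : r.Prime) (hn : n < r ^ 2) (h : r ^ b ∣ Nat.card G) : b ≤ n / r := by
  haveI : Nontrivial (Fin n) := Fin.nontrivial_iff_two_le.2 (by omega)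
  have h1 := h.mul_left 2
  rw [hG, two_mul_nat_card_alternatingGroup, Nat.card_perm, Nat.card_fin,
    hr.pow_dvd_factorial_iff (b := 2) (log_lt_of_lt_pow (by omega) hn)] at h1
  simpa using h1

omit [Finite G] in
theorem dvd_card {n r : ℕ} (h5 : 5 ≤ n) (hG : Nat.card G = Nat.card (alternatingGroup (Fin n)))
    (hr : r.Prime) (h2 : r ≠ 2) (hn : r ≤ n) : r ∣ Nat.card G := by
  haveI : Nontrivial (Fin n) := Fin.nontrivial_iff_two_le.2 (by omega)
  refine ((coprime_primes hr prime_two).2 h2).dvd_of_dvd_mul_left ?_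
  rw [hG, two_mul_nat_card_alternatingGroup, Nat.card_perm, Nat.card_fin]
  exact hr.dvd_factorial.2 hn

omit [Finite G] in
theorem no_ord {n p r : ℕ}
    (hs : Set.range (orderOf : G → ℕ) = Set.range (orderOf : alternatingGroup (Fin n) → ℕ))
    (hp : p.Prime) (hr : r.Prime) (hne : p ≠ r) (h : n < p + r) : ¬ ∃ g : G, orderOf g = p * r :=
  fun hg => by
    obtain ⟨σ, e⟩ := hs.le hg
    exact absurd (add_le_of_order hp hr hne ((orderOf_coe σ).trans e)) (not_le.2 h)

theorem solv (hG : Group.IsSolvable G) {p r : ℕ} (hp : p.Prime) (hr : r.Prime) (hne : p ≠ r)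
    (h : ¬ r ∣ p - 1) (h1 : p ∣ Nat.card G) (h2 : ¬ p ^ 2 ∣ Nat.card G) (h3 : r ∣ Nat.card G)
    (h4 : ∀ b, r ^ b ∣ Nat.card G → r ^ b ≡ 1 [MOD p] → b = 0) : ∃ g : G, orderOf g = p * r := by
  haveI := Fact.mk hp
  obtain ⟨K, hK1, hK2⟩ := H1.exists_isPiHall {p, r} hG
  have d : ∀ s, s.Prime → s ∈ ({p, r} : Set ℕ) → s ∣ Nat.card G → s ∣ Nat.card K := fun s hs a b =>
    (hs.dvd_mul.1 (K.card_mul_index ▸ b)).resolve_right (hK2 s hs a)
  obtain ⟨P⟩ : Nonempty (Sylow p K) := inferInstance
  have hP : Nat.card P = p := by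
    obtain ⟨k, hk⟩ := P.2.exists_card_eq
    rcases k with _ | _ | k
    · have := P.1.card_mul_index
      rw [hk, pow_zero, one_mul] at this
      exact (P.not_dvd_index (this ▸ d p hp (by simp) h1)).elim
    · simpa using hk
    · exact (h2 ((pow_dvd_pow p (by omega)).trans (hk ▸ (card_subgroup_dvd_card _).trans
        (card_subgroup_dvd_card K)))).elim
  have c1 := card_sylow_modEq_one p K
  have c2 : Nat.card (Sylow p K) ∣ P.1.index := P.card_dvd_index
  have c3 := eq_prime_pow_of_unique_prime_dvd (p := r) (Nat.card_pos (α := Sylow p K)).ne'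
    fun {s} hs hd => by
      rcases hK1 s hs ((hd.trans c2).trans (index_dvd_card _)) with rfl | rfl
      · exact (P.not_dvd_index (hd.trans c2)).elim
      · rfl
  rw [c3] at c1 c2
  rw [h4 _ (c2.trans ((index_dvd_card _).trans (card_subgroup_dvd_card K))) c1, pow_zero,
    P.card_eq_index_normalizer, index_eq_one] at c3
  obtain ⟨g, hg⟩ := act hp hr hne h hP (by rw [P.coe_coe, c3, card_top]; exact d r hr (by simp) h3)
  exact ⟨g, (orderOf_coe g).trans hg⟩

theorem not_dvd_pred {n p r : ℕ} (h5 : 5 ≤ n) (hp : p.Prime) (hr : r.Prime) (h1 : n < 2 * r)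
    (h2 : p ≤ n) : ¬ r ∣ p - 1 := by
  rintro ⟨k, hk⟩
  have := hp.two_le
  rcases k with _ | _ | k
  · omega
  · rcases hp.eq_two_or_odd with a | a <;> rcases hr.eq_two_or_odd with b | b <;> omega
  · nlinarith [Nat.sub_add_cancel hp.one_le]

theorem nonsolv {n : ℕ} (h5 : 5 ≤ n) (hG : Nat.card G = Nat.card (alternatingGroup (Fin n)))
    (hs : Set.range (orderOf : G → ℕ) = Set.range (orderOf : alternatingGroup (Fin n) → ℕ)) :
    ¬ Group.IsSolvable G := fun h => by
  have key : ∀ p r : ℕ, p.Prime → r.Prime → n < 2 * p → p ≤ n → r < p → r ≠ 2 → n < p + r →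
      n < r ^ 2 → ¬ r ∣ p - 1 → (∀ b ≤ n / r, r ^ b ≡ 1 [MOD p] → b = 0) → False := by
    intro p r hp hr a b c d e f g k
    refine no_ord hs hp hr c.ne' e (solv h hp hr c.ne' g (dvd_card h5 hG hp (by omega) b)
      (fun hd => ?_) (dvd_card h5 hG hr d (by omega)) fun i hi => k i (val_le h5 hG hr f hi))
    have := val_le h5 hG hp (by nlinarith) hd
    rw [le_div_iff_mul_le hp.pos] at this
    omega
  by_cases h11 : 11 ≤ n
  · obtain ⟨p, r, hp, hr, a, b, c⟩ := two_primes h11
    refine key p r hp hr (by omega) c b (by omega) (by omega) (by nlinarith)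
      (not_dvd_pred h5 hp hr a c) fun i hi e => ?_
    have : n / r < 2 := (div_lt_iff_lt_mul hr.pos).2 a
    rcases i with _ | _ | i
    · rfl
    · rw [zero_add, pow_one] at e
      exact (hr.one_lt.ne' (e.eq_of_lt_of_lt b hp.one_lt)).elim
    · omega
  by_cases h7 : 7 ≤ n
  · refine key 7 5 (by norm_num) (by norm_num) (by omega) h7 (by omega) (by omega) (by omega)
      (by omega) (by norm_num) fun i hi e => ?_
    have : i ≤ 2 := by omega
    interval_cases i <;> first | rfl | exact absurd e (by decide)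
  · refine key 5 3 (by norm_num) (by norm_num) (by omega) h5 (by omega) (by omega) (by omega)
      (by omega) (by norm_num) fun i hi e => ?_
    have : i ≤ 2 := by omega
    interval_cases i <;> first | rfl | exact absurd e (by decide)

theorem simple_of_min {M : Subgroup G} [M.Normal] (hM : ∀ L : Subgroup G, L.Normal → L ≤ M → L = ⊥ ∨ L = M)
    {p : ℕ} (hp : p.Prime) (h1 : p ∣ Nat.card M) (h2 : ¬ p ^ 2 ∣ Nat.card M) : IsSimpleGroup M := by
  haveI := Fact.mk hp
  have hc : ∀ L : Subgroup M, L.Characteristic → L = ⊥ ∨ L = ⊤ := fun L hL => by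
    rcases hM (L.map M.subtype) inferInstance (map_subtype_le L) with h | h
    · exact Or.inl ((map_eq_bot_iff_of_injective _ M.subtype_injective).1 h)
    · exact Or.inr (map_injective M.subtype_injective (h.trans (by rw [← MonoidHom.range_eq_map,
        range_subtype])))
  obtain ⟨x, hx⟩ := exists_prime_orderOf_dvd_card' p h1
  have x1 : x ≠ 1 := fun e => hp.one_lt.ne (by rw [← hx, e, orderOf_one])
  haveI : Nontrivial M := ⟨x, 1, x1⟩
  refine ⟨fun L hL => or_iff_not_imp_left.2 fun h0 => ?_⟩
  have d : p ∣ Nat.card L := by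
    by_contra hd
    rcases hc (piCore {p}ᶜ M) inferInstance with h | h
    · exact h0 (le_bot_iff.1 (h ▸ H1.le_piCore fun s hs a e => hd (e ▸ a)))
    · have := H1.isPiNum_card_piCore (G := M) {p}ᶜ
      rw [h, card_top] at this
      exact this p hp h1 rfl
  have hi : ¬ p ∣ L.index := fun h => h2 (by rw [sq, ← L.card_mul_index]; exact mul_dvd_mul d h)
  have hch : (closure {y : M | y ^ p = 1}).Characteristic := characteristic_iff_map_le.2 fun α => by
    rw [MonoidHom.map_closure]
    refine closure_mono ?_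
    rintro _ ⟨y, hy, rfl⟩
    change α y ^ p = 1
    rw [← map_pow, hy, map_one]
  rcases hc _ hch with h | h
  · exact (x1 (mem_bot.1 (h ▸ subset_closure (hx ▸ pow_orderOf_eq_one x)))).elim
  · rw [eq_top_iff, ← h, closure_le]
    intro y hy
    have a : orderOf (y : M ⧸ L) ∣ p := orderOf_dvd_of_pow_eq_one (by
      rw [← QuotientGroup.mk_pow, hy]; rfl)
    rcases (dvd_prime hp).1 a with e | e
    · exact (QuotientGroup.eq_one_iff y).1 (orderOf_eq_one_iff.1 e)
    · exact (hi (e ▸ orderOf_dvd_natCard _)).elim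

theorem section_simple {n : ℕ} (h11 : 11 ≤ n)
    (hG : Nat.card G = Nat.card (alternatingGroup (Fin n)))
    (hs : Set.range (orderOf : G → ℕ) = Set.range (orderOf : alternatingGroup (Fin n) → ℕ)) :
    ∃ (N H : Subgroup G) (_ : N.Normal), H.Normal ∧ N < H ∧
      IsSimpleGroup (H ⧸ N.subgroupOf H) ∧ ¬ IsMulCommutative (H ⧸ N.subgroupOf H) ∧
      ∀ p : ℕ, p.Prime → n < 2 * p → p ≤ n → p ∣ Nat.card (H ⧸ N.subgroupOf H) := by
  have h5 : 5 ≤ n := by omega
  obtain ⟨p, r, hp, hr, a, b, c⟩ := two_primes h11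
  obtain ⟨N, ⟨hN, hN1⟩, hmax⟩ := exists_maximal_of_wellFoundedGT (fun N : Subgroup G => N.Normal ∧
    ∀ s : ℕ, s.Prime → n < 2 * s → s ≤ n → ¬ s ∣ Nat.card N)
    ⟨⊥, inferInstance, fun s hs _ _ => by simpa using hs.one_lt.ne'⟩
  have hNt : N ≠ ⊤ := fun e => hN1 p hp (by omega) c (by
    rw [e, card_top]; exact dvd_card h5 hG hp (by omega) c)
  obtain ⟨H, ⟨hH, hNH⟩, hmin⟩ := exists_minimal_of_wellFoundedLT (fun H : Subgroup G => H.Normal ∧ N < H)
    ⟨⊤, inferInstance, hNt.lt_top⟩
  have sq : ∀ s : ℕ, s.Prime → n < 2 * s → ¬ s ^ 2 ∣ Nat.card G := fun s hs a hd => by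
    have := val_le h5 hG hs (by nlinarith) hd
    rw [le_div_iff_mul_le hs.pos] at this
    omega
  have all : ∀ s : ℕ, s.Prime → n < 2 * s → s ≤ n → s ∣ Nat.card H := by
    obtain ⟨q, hq, q1, q2, q3⟩ : ∃ q : ℕ, q.Prime ∧ n < 2 * q ∧ q ≤ n ∧ q ∣ Nat.card H := by
      by_contra hh
      push Not at hh
      exact hNH.not_ge (hmax ⟨hH, hh⟩ hNH.le)
    intro s hs s1 s2
    by_contra s3
    have hne : q ≠ s := fun e => s3 (e ▸ q3)
    haveI := Fact.mk hq
    obtain ⟨P⟩ : Nonempty (Sylow q H) := inferInstance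
    have hP : Nat.card P = q := by
      obtain ⟨k, hk⟩ := P.2.exists_card_eq
      rcases k with _ | _ | k
      · have := P.1.card_mul_index
        rw [hk, pow_zero, one_mul] at this
        exact (P.not_dvd_index (this ▸ q3)).elim
      · simpa using hk
      · exact (sq q hq q1 ((pow_dvd_pow q (by omega)).trans (hk ▸ (card_subgroup_dvd_card _).trans
          (card_subgroup_dvd_card H)))).elim
    refine no_ord ‹_› hq hs hne (by omega) (act hq hs hne (not_dvd_pred h5 hq hs s1 q2)
      (P := P.1.map H.subtype) ((card_map_of_injective H.subtype_injective).trans hP) ?_)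
    have e := relIndex_sup_right (normalizer (P.1.map H.subtype : Set G)) H
    rw [P.normalizer_sup_eq_top, relIndex_top_right] at e
    refine Dvd.dvd.trans ?_ (relIndex_dvd_card H _)
    rw [← e]
    exact (hs.dvd_mul.1 (H.card_mul_index ▸ dvd_card h5 hG hs (by omega) s2)).resolve_left s3
  have all' : ∀ s : ℕ, s.Prime → n < 2 * s → s ≤ n → s ∣ Nat.card (H ⧸ N.subgroupOf H) :=
    fun s hs s1 s2 => by
      have := all s hs s1 s2
      rw [card_eq_card_quotient_mul_card_subgroup (N.subgroupOf H),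
        Nat.card_congr (subgroupOfEquivOfLe hNH.le).toEquiv] at this
      exact (hs.dvd_mul.1 this).resolve_right (hN1 s hs s1 s2)
  let f := QuotientGroup.mk' N
  have hf : Function.Surjective f := QuotientGroup.mk'_surjective N
  haveI := hH.map f hf
  let e : (H ⧸ N.subgroupOf H) ≃* H.map f :=
    (QuotientGroup.quotientMulEquivOfEq (by
      ext x; simp [MonoidHom.mem_ker, Subtype.ext_iff, f, mem_subgroupOf])).trans
      (QuotientGroup.quotientKerEquivOfSurjective _ (f.subgroupMap_surjective H))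
  haveI : IsSimpleGroup (H.map f) := simple_of_min (p := p) (fun L hL hle => by
      by_cases h : L.comap f ≤ N
      · left
        rw [← map_comap_eq_self_of_surjective hf L, Subgroup.map_eq_bot_iff, QuotientGroup.ker_mk']
        exact h
      · right
        have h1 : N ≤ L.comap f := QuotientGroup.le_comap_mk' N L
        have h2 : L.comap f ≤ H := (comap_mono hle).trans (by
          rw [comap_map_eq, QuotientGroup.ker_mk', sup_eq_left.2 hNH.le])
        rw [← map_comap_eq_self_of_surjective hf L,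
          h2.antisymm (hmin ⟨inferInstance, lt_of_le_not_ge h1 h⟩ h2)]) hp
    (Nat.card_congr e.toEquiv ▸ all' p hp (by omega) c) fun hd => sq p hp (by omega)
      (hd.trans ((card_subgroup_dvd_card _).trans (card_quotient_dvd_card N)))
  haveI := e.isSimpleGroup
  refine ⟨N, H, hN, hH, hNH, this, fun hc => ?_, all'⟩
  have : (Nat.card (H ⧸ N.subgroupOf H)).Prime := by
    open scoped IsMulCommutative in exact IsSimpleGroup.prime_card
  exact b.ne (((prime_dvd_prime_iff_eq hr this).1 (all' r hr a (by omega))).trans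
    ((prime_dvd_prime_iff_eq hp this).1 (all' p hp (by omega) c)).symm)

end Cfsg.Agent.H22.Tw
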